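import Cfsg.Agent.Lib.TIW.Max
import Cfsg.Agent.S1780

/-! Abelian TI-subgroups that are neither cyclic nor elementary: neighbours. -/

set_option autoImplicit false

namespace Cfsg.Lib.TIB

open Subgroup Cfsg.Lib.BG Cfsg.Lib.Transfer Cfsg.Lib.GW Cfsg.Lib.TIW
open Cfsg.Lib.Inv hiding conj_mem_of_mem_normalizer
open scoped Cfsg.Lib.Transfer

variable {G : Type*} [Group G] {Ω : Set (Subgroup G)} {K P U V X Y Z : Subgroup G}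
  {a b c d g r s t u v w x y z : G}

/-- The elements of order at most two in the centre. -/
def Om (X : Subgroup G) : Subgroup G where
  carrier := {x | x ∈ X ∧ x ∈ 𝐂(X) ∧ x * x = 1}
  one_mem' := ⟨one_mem _, one_mem _, one_mul _⟩
  mul_mem' h k := ⟨mul_mem h.1 k.1, mul_mem h.2.1 k.2.1, sq_mul h.2.2 k.2.2 (mem_cent.1 k.2.1 _ h.1)⟩
  inv_mem' h := ⟨inv_mem h.1, inv_mem h.2.1, by rw [← mul_inv_rev, h.2.2, inv_one]⟩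

theorem om_le (X : Subgroup G) : Om X ≤ X := fun _ h => h.1

theorem om_sq (h : x ∈ Om X) : x * x = 1 := h.2.2

theorem om_inv (h : x ∈ Om X) : x⁻¹ = x := inv_eq_of_mul_self h.2.2

theorem om_cm (h : x ∈ Om X) (k : y ∈ X) : x * y = y * x := (mem_cent.1 h.2.1 y k).symm

theorem om_cj (g : G) (h : x ∈ Om X) : g * x * g⁻¹ ∈ Om (g ⋆ X) :=
  ⟨conj_mem_conj.2 h.1, conj_centralizer g X ▸ conj_mem_conj.2 h.2.1, sq_cj g h.2.2⟩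

theorem conj_om (g : G) (X : Subgroup G) : g ⋆ Om X = Om (g ⋆ X) :=
  le_antisymm (conj_le_iff.2 fun _ => om_cj g) fun x hx => mem_conj.2 (by
    simpa only [inv_conj_conj, inv_inv] using om_cj g⁻¹ hx)

theorem norm_om (h : g ∈ 𝐍(X)) : g ∈ 𝐍(Om X) := norm_of_conj_eq (by rw [conj_om, conj_eq_of_norm h])

theorem om_cj' (hg : g ∈ 𝐍(X)) (h : x ∈ Om X) : g * x * g⁻¹ ∈ Om X := conj_mem_of_norm (norm_om hg) h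

theorem pg_om (X : Subgroup G) : IsPGroup 2 (Om X) := pg_of_sq fun _ => om_sq

theorem cent_om (X : Subgroup G) : X ≤ 𝐂(Om X) := le_cent_iff.2 fun _ h _ k => (om_cm k h).symm

theorem cm_right (a x y : G) : a ⋄ (x * y) = a ⋄ x * (x * a ⋄ y * x⁻¹) := by group

theorem cm_left (a b x : G) : (a * b) ⋄ x = a * b ⋄ x * a⁻¹ * a ⋄ x := by group

theorem cm_conj (g a x : G) : g * a ⋄ x * g⁻¹ = (g * a * g⁻¹) ⋄ (g * x * g⁻¹) := by group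

theorem cm_swap (a x : G) : x ⋄ a = (a ⋄ x)⁻¹ := by group

theorem cj_eq_cm (a x : G) : a * x * a⁻¹ = a ⋄ x * x := by group

theorem pgz (hP : IsPGroup 2 P) (hx : x ∈ P) : IsPGroup 2 (zpowers x) := pgroup_of_le hP (zpowers_le.2 hx)

theorem fix1 [Finite G] (hV : IsPGroup 2 V) (h1 : V ≠ ⊥) (hx : IsPGroup 2 (zpowers x)) (hn : x ∈ 𝐍(V)) :
    ∃ v ∈ V, v ≠ 1 ∧ x * v = v * x :=
  let ⟨v, hv, v1, e⟩ := exists_fix hV h1 hx (zp_norm.2 hn)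
  ⟨v, hv, v1, mem_cent.1 e x (mem_zpowers x)⟩

/-- The commutative group structure of an abelian subgroup. -/
@[reducible] def cgp (h : U ≤ 𝐂(U)) : CommGroup U :=
  { (inferInstance : Group U) with mul_comm := fun a b => Subtype.ext (le_cent_iff.1 h a a.2 b b.2) }

theorem cg1 {A : Type*} [CommGroup A] {p q w u : A} (h1 : q * w = u * p) (h2 : p * w = u * q) :
    q * q = p * p := by
  refine mul_left_cancel (a := u * w) ?_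
  calc _ = u * q * (q * w) := by ac_rfl
    _ = p * w * (u * p) := by rw [h1, h2]
    _ = _ := by ac_rfl

theorem inv_fix (e : t * u * t⁻¹ = u⁻¹) (h1 : u * u * r = r * (u * u)) (h2 : t * r = r * t) :
    t * (u * r * u⁻¹) = u * r * u⁻¹ * t := cm_of_cj (by
  rw [show t * (u * r * u⁻¹) * t⁻¹ = t * u * t⁻¹ * (t * r * t⁻¹) * (t * u * t⁻¹)⁻¹ by group, e, cj_of_cm h2]
  nth_rw 1 [← cj_of_cm h1]
  group)

theorem inv_zp (hx : x * x = 1) (hy : y * y = 1) (hu : u ∈ zpowers (x * y)) :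
    x * u * x⁻¹ = u⁻¹ ∧ y * u * y⁻¹ = u⁻¹ := by
  obtain ⟨k, rfl⟩ := hu
  exact ⟨by rw [conj_zpow_of_inv (pair_left_inv hx hy), zpow_neg],
    by rw [conj_zpow_of_inv (pair_right_inv hx hy), zpow_neg]⟩

/-- A class of abelian TI `2`-subgroups, neither cyclic nor elementary, whose normalizers are maximal
`2`-local subgroups of characteristic two. -/
structure Tb (Ω : Set (Subgroup G)) : Prop where
  ab : ∀ {X}, X ∈ Ω → X ≤ 𝐂(X)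
  pg : ∀ {X}, X ∈ Ω → IsPGroup 2 X
  cj : ∀ {X}, X ∈ Ω → ∀ g : G, g ⋆ X ∈ Ω
  tr : ∀ {X Y}, X ∈ Ω → Y ∈ Ω → ∃ g : G, g ⋆ X = Y
  ti : ∀ {X Y a}, X ∈ Ω → Y ∈ Ω → a ∈ X → a ∈ Y → a ≠ 1 → X = Y
  four : ∀ {X}, X ∈ Ω → ∃ s ∈ Om X, ∃ t ∈ Om X, s ≠ 1 ∧ t ≠ 1 ∧ s ≠ t
  nel : ∀ {X}, X ∈ Ω → ∃ x ∈ X, x * x ≠ 1 ∧ x * x * (x * x) = 1
  mx : ∀ {X P : Subgroup G}, X ∈ Ω → IsPGroup 2 P → P ≠ ⊥ → 𝐍(X) ≤ 𝐍(P) → 𝐍(P) ≤ 𝐍(X)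
  ch : ∀ {X}, X ∈ Ω → 𝐍(X) ⊓ 𝐂(𝐎({2}, 𝐍(X))) ≤ 𝐎({2}, 𝐍(X))

namespace Tb

variable (h : Tb Ω)
include h

theorem cm (hX : X ∈ Ω) (ha : a ∈ X) (hb : b ∈ X) : a * b = b * a := le_cent_iff.1 (h.ab hX) a ha b hb

theorem mem_om (hX : X ∈ Ω) (ha : a ∈ X) (e : a * a = 1) : a ∈ Om X := ⟨ha, h.ab hX ha, e⟩

theorem cj_eq (hX : X ∈ Ω) (hY : Y ∈ Ω) (ha : a ∈ X) (h1 : a ≠ 1) (e : g * a * g⁻¹ ∈ Y) : g ⋆ X = Y :=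
  h.ti (h.cj hX g) hY (conj_mem_conj.2 ha) e (cj_ne h1)

theorem norm_of_cm (hX : X ∈ Ω) (ha : a ∈ X) (h1 : a ≠ 1) (e : g * a = a * g) : g ∈ 𝐍(X) :=
  norm_of_conj_eq (h.cj_eq hX hX ha h1 ((cj_of_cm e).symm ▸ ha))

theorem eq_one (hX : X ∈ Ω) (hY : Y ∈ Ω) (ne : X ≠ Y) (ha : a ∈ X) (hb : a ∈ Y) : a = 1 :=
  by_contra fun e => ne (h.ti hX hY ha hb e)

theorem ex1 (hX : X ∈ Ω) : ∃ a ∈ Om X, a ≠ 1 := let ⟨s, hs, _, _, e, _⟩ := h.four hX; ⟨s, hs, e⟩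

theorem om_ne (hX : X ∈ Ω) : Om X ≠ ⊥ := let ⟨_, hs, e⟩ := h.ex1 hX; ne_bot_of_mem hs e

theorem ne_bot (hX : X ∈ Ω) : X ≠ ⊥ := ne_bot_mono (h.om_ne hX) (om_le X)

theorem exn (hX : X ∈ Ω) : ∃ x ∈ X, x ∉ Om X := let ⟨x, hx, e, _⟩ := h.nel hX; ⟨x, hx, fun k => e k.2.2⟩

theorem cent_om_le (hX : X ∈ Ω) : 𝐂(Om X) ≤ 𝐍(X) := fun _ e =>
  let ⟨a, ha, a1⟩ := h.ex1 hX
  h.norm_of_cm hX ha.1 a1 (mem_cent.1 e a ha).symm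

theorem norm_om_le (hX : X ∈ Ω) : 𝐍(Om X) ≤ 𝐍(X) := fun _ e =>
  let ⟨_, ha, a1⟩ := h.ex1 hX
  norm_of_conj_eq (h.cj_eq hX hX ha.1 a1 (conj_mem_of_norm e ha).1)

theorem card_eq (hX : X ∈ Ω) (hY : Y ∈ Ω) : Nat.card X = Nat.card Y := by
  obtain ⟨g, rfl⟩ := h.tr hX hY
  rw [card_conj]

theorem card_om (hX : X ∈ Ω) (hY : Y ∈ Ω) : Nat.card (Om X) = Nat.card (Om Y) := by
  obtain ⟨g, rfl⟩ := h.tr hX hY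
  rw [← conj_om, card_conj]

theorem cm_nn (hX : X ∈ Ω) (hY : Y ∈ Ω) (hx : x ∈ X) (hx' : x ∈ 𝐍(Y)) (hy : y ∈ Y) (hy' : y ∈ 𝐍(X)) :
    x * y = y * x := by
  obtain rfl | ne := eq_or_ne X Y
  · exact h.cm hX hx hy
  · exact cm_of_one (h.eq_one hX hY ne (cm_mem_left hy' hx) (cm_mem_right hx' hy))

theorem cm_cent (hY : Y ∈ Ω) (e : ∀ u ∈ U, u ∈ Y → u = 1) (hu : u ∈ U) (hs : s ∈ Y) (s1 : s ≠ 1)
    (c : u * s = s * u) (ht : t ∈ Y) (hn : t ∈ 𝐍(U)) : t * u = u * t :=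
  cm_of_one (e _ (cm_mem_right hn hu) (cm_mem_left (h.norm_of_cm hY hs s1 c) ht))

theorem k0 (hY : Y ∈ Ω) (cU : U ≤ 𝐂(U)) (e : ∀ u ∈ U, u ∈ Y → u = 1) (hs : s ∈ Om Y) (ht : t ∈ Om Y) (s1 : s ≠ 1)
    (t1 : t ≠ 1) (ns : s ∈ 𝐍(U)) (nt : t ∈ 𝐍(U)) (hu : u ∈ U) : s * t * (u * u) = u * u * (s * t) := by
  have k : ∀ {s t}, s ∈ Om Y → t ∈ Om Y → s ≠ 1 → s ∈ 𝐍(U) → t ∈ 𝐍(U) →
      t * u * t⁻¹ * (s * (t * u * t⁻¹) * s⁻¹) = u * (s * u * s⁻¹) := fun {s t} hs ht s1 ns nt => by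
    have := cj_of_cm (h.cm_cent hY e (mul_mem hu (conj_mem_of_norm ns hu)) hs.1 s1 (cm_of_cj (by
      rw [← conj_mul, cj_cj hs.2.2, le_cent_iff.1 cU _ (conj_mem_of_norm ns hu) u hu])).symm ht.1 nt)
    rw [← this, show s * (t * u * t⁻¹) * s⁻¹ = s * t * u * (s * t)⁻¹ by group, om_cm hs ht.1]
    group
  have e1 := k hs ht s1 ns nt
  have e2 := k ht hs t1 nt ns
  rw [show t * (s * u * s⁻¹) * t⁻¹ = t * s * u * (t * s)⁻¹ by group, om_cm ht hs.1,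
    show s * t * u * (s * t)⁻¹ = s * (t * u * t⁻¹) * s⁻¹ by group] at e2
  have e3 : t * u * t⁻¹ * (t * u * t⁻¹) = s * u * s⁻¹ * (s * u * s⁻¹) := congrArg Subtype.val
    (@cg1 U (cgp cU) ⟨_, conj_mem_of_norm ns hu⟩ ⟨_, conj_mem_of_norm nt hu⟩
      ⟨_, conj_mem_of_norm ns (conj_mem_of_norm nt hu)⟩ ⟨u, hu⟩ (Subtype.ext e1) (Subtype.ext e2))
  rw [conj_mul, conj_mul] at e3
  refine cm_of_cj ?_
  rw [show s * t * (u * u) * (s * t)⁻¹ = s * (t * (u * u) * t⁻¹) * s⁻¹ by group, e3, cj_cj hs.2.2]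

variable [Finite G]

theorem lemJ (hY : Y ∈ Ω) (pU : IsPGroup 2 U) (cU : U ≤ 𝐂(U)) (e : ∀ u ∈ U, u ∈ Y → u = 1) (hy : y ∈ Y)
    (y2 : y * y ≠ 1) (hn : y ∈ 𝐍(U)) : y ∈ 𝐂(U) := by
  obtain ⟨k, hk⟩ := h.pg hY ⟨y, hy⟩
  have hk : (⟨y, hn⟩ : 𝐍(U)) ^ 2 ^ k = 1 := Subtype.ext (congrArg Subtype.val hk :)
  refine mem_cent.2 fun u hu => (cm_of_cj (congrArg Subtype.val (@Agent.S1780.result U (cgp cU) _ pU
    (U.normalizerMonoidHom ⟨y, hn⟩) ?_ (fun a q => Subtype.ext (cj_of_cm ?_)) ⟨u, hu⟩))).symm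
  · obtain ⟨i, -, q⟩ := (Nat.dvd_prime_pow Nat.prime_two).1 (orderOf_dvd_of_pow_eq_one
      (by rw [← map_pow, hk, map_one] : U.normalizerMonoidHom ⟨y, hn⟩ ^ 2 ^ k = 1))
    exact ⟨i, q⟩
  · have q : y * (y * a * y⁻¹) * y⁻¹ = a := congrArg Subtype.val q
    exact h.cm_cent hY e a.2 (mul_mem hy hy) y2 (cm_of_cj (by rw [← q]; nth_rw 1 [q]; group)).symm hy hn

theorem cent_of_nel (hX : X ∈ Ω) (hY : Y ∈ Ω) (hy : y ∈ Y) (y2 : y * y ≠ 1) (hn : y ∈ 𝐍(X)) : Y ≤ 𝐂(X) := by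
  obtain rfl | ne := eq_or_ne X Y
  · exact h.ab hX
  have e1 := h.lemJ hY (h.pg hX) (h.ab hX) (fun _ => h.eq_one hX hY ne) hy y2 hn
  have e2 : X ≤ 𝐍(Y) := fun x hx => h.norm_of_cm hY hy (fun e => y2 (by rw [e, one_mul])) (mem_cent.1 e1 x hx)
  obtain ⟨x, hx, x2, -⟩ := h.nel hX
  have e3 := h.lemJ hX (h.pg hY) (h.ab hY) (fun _ => h.eq_one hY hX ne.symm) hx x2 (e2 hx)
  exact le_cent_iff.2 fun b hb a ha => h.cm_nn hY hX hb (h.norm_of_cm hX hx (fun e => x2 (by rw [e, one_mul]))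
    (mem_cent.1 e3 b hb)) ha (e2 ha)

end Tb

/-- Neighbours that do not commute. -/
structure Al (Ω : Set (Subgroup G)) (X Y : Subgroup G) : Prop where
  tb : Tb Ω
  hX : X ∈ Ω
  hY : Y ∈ Ω
  ex : ∃ r ∈ Y, r ≠ 1 ∧ r ∈ 𝐍(X)
  nc : ¬ Y ≤ 𝐂(X)

theorem Tb.tri (h : Tb Ω) (hX : X ∈ Ω) (hY : Y ∈ Ω) (hr : r ∈ Y) (r1 : r ≠ 1) (hn : r ∈ 𝐍(X)) :
    Y ≤ 𝐂(X) ∨ Al Ω X Y := (em _).imp_right fun e => ⟨h, hX, hY, ⟨r, hr, r1, hn⟩, e⟩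

namespace Al

variable (h : Al Ω X Y)
include h

theorem ne : X ≠ Y := fun e => h.nc (e ▸ h.tb.ab h.hX)

theorem eq_one (ha : a ∈ X) (hb : a ∈ Y) : a = 1 := h.tb.eq_one h.hX h.hY h.ne ha hb

theorem cmX (ha : a ∈ X) (hb : b ∈ X) : a * b = b * a := h.tb.cm h.hX ha hb

theorem cmY (ha : a ∈ Y) (hb : b ∈ Y) : a * b = b * a := h.tb.cm h.hY ha hb

theorem conj (g : G) : Al Ω (g ⋆ X) (g ⋆ Y) :=
  let ⟨_, hr, r1, n⟩ := h.ex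
  ⟨h.tb, h.tb.cj h.hX g, h.tb.cj h.hY g, ⟨_, conj_mem_conj.2 hr, cj_ne r1, mem_norm_cj n⟩, fun e =>
    h.nc (conj_le_conj_iff.1 (conj_centralizer g X ▸ e))⟩

theorem conjX (hg : g ∈ 𝐍(X)) : Al Ω X (g ⋆ Y) := by simpa only [conj_eq_of_norm hg] using h.conj g

theorem cmJ (hj : a ∈ X ⊳ Y) (hi : r ∈ Y ⊳ X) : a * r = r * a := h.tb.cm_nn h.hX h.hY hj.1 hj.2 hi.1 hi.2

theorem inj0 (hn : x ∉ 𝐍(Y)) (hi : r ∈ Y) (e : x * r = r * x) : r = 1 := by_contra fun i1 =>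
  hn (h.tb.norm_of_cm h.hY hi i1 e)

variable [Finite G]

theorem symm : Al Ω Y X := by
  obtain ⟨r, hr, r1, n⟩ := h.ex
  obtain ⟨v, hv, v1, e⟩ := fix1 (h.tb.pg h.hX) (h.tb.ne_bot h.hX) (pgz (h.tb.pg h.hY) hr) n
  exact ⟨h.tb, h.hY, h.hX, ⟨v, hv, v1, h.tb.norm_of_cm h.hY hr r1 e.symm⟩, fun e => h.nc (cent_symm e)⟩

theorem sqI (hi : r ∈ Y ⊳ X) : r * r = 1 := by_contra fun e => h.nc (h.tb.cent_of_nel h.hX h.hY hi.1 e hi.2)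

theorem nrm (hx : x ∈ X) (hi : r ∈ Y ⊳ X) (r1 : r ≠ 1) : x * (r * x * r⁻¹) ∈ X ⊳ Y :=
  ⟨mul_mem hx (conj_mem_of_norm hi.2 hx), h.tb.norm_of_cm h.hY hi.1 r1 (cm_of_cj (by
    rw [← conj_mul, cj_cj (h.sqI hi), h.cmX (conj_mem_of_norm hi.2 hx) hx])).symm⟩

theorem fourJ : ∃ s ∈ X ⊳ Y, ∃ t ∈ X ⊳ Y, s ≠ 1 ∧ t ≠ 1 ∧ s ≠ t := by
  by_contra! n
  obtain ⟨r, hr, r1, hn⟩ := h.ex
  have fx : ∀ {x}, x ∈ X → r * x * r⁻¹ = x → x ∈ X ⊳ Y := fun hx e =>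
    ⟨hx, h.tb.norm_of_cm h.hY hr r1 (cm_of_cj e).symm⟩
  have k : ∀ {x}, x ∈ X → x * x ≠ 1 → x * x * (x * x) = 1 → r * x * r⁻¹ = x⁻¹ ∧ x * x ∈ X ⊳ Y := fun {x} hx x2 x4 => by
    have e1 := h.nrm hx ⟨hr, hn⟩ r1
    have e2 := h.symm.sqI e1
    rw [mul_assoc, ← mul_assoc (r * x * r⁻¹), h.cmX (conj_mem_of_norm hn hx) hx, mul_assoc, conj_mul,
      ← mul_assoc] at e2
    have e3 := fx (mul_mem hx hx) ((eq_inv_of_mul_eq_one_right e2).trans (inv_eq_of_mul_self x4))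
    refine ⟨eq_inv_of_mul_eq_one_right (by_contra fun e => x2 (h.symm.sqI (fx hx ?_))), e3⟩
    exact mul_left_cancel (n _ e1 _ e3 e x2)
  obtain ⟨x, hx, x2, x4⟩ := h.tb.nel h.hX
  obtain ⟨e1, e2⟩ := k hx x2 x4
  have q : ∀ a ∈ Om X, a ≠ 1 → a = x * x := fun a ha a1 => by
    have e3 : x * a * (x * a) = x * x := by
      rw [mul_assoc, ← mul_assoc a, om_cm ha hx, mul_assoc x a, ha.2.2, mul_one]
    have e4 := (k (mul_mem hx ha.1) (e3 ▸ x2) (e3 ▸ x4)).1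
    rw [← conj_mul, e1, ← om_cm ha hx, mul_inv_rev, om_inv ha] at e4
    exact n _ (fx ha.1 (mul_left_cancel e4)) _ e2 a1 x2
  obtain ⟨s, hs, t, ht, s1, t1, e⟩ := h.tb.four h.hX
  exact e ((q s hs s1).trans (q t ht t1).symm)

theorem omI (hi : r ∈ Y ⊳ X) : r ∈ Om Y := h.tb.mem_om h.hY hi.1 (h.sqI hi)

theorem sqJ (hx : x ∈ X) : x * x ∈ X ⊳ Y := by
  obtain ⟨s, hs, t, ht, s1, t1, e⟩ := h.symm.fourJ
  exact ⟨mul_mem hx hx, h.tb.norm_of_cm h.hY (mul_mem hs.1 ht.1) (fun q => e (by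
    rw [eq_inv_of_mul_eq_one_left q, om_inv (h.omI ht)])) (h.tb.k0 h.hY (h.tb.ab h.hX) (fun _ => h.eq_one)
      (h.omI hs) (h.omI ht) s1 t1 hs.2 ht.2 hx).symm⟩

theorem cmJ_mem (hx : x ∈ X) (hi : r ∈ Y ⊳ X) : x ⋄ r ∈ X ⊳ Y := by
  obtain rfl | r1 := eq_or_ne r 1
  · simp
  simpa [mul_assoc] using mul_mem (h.sqJ hx) (h.nrm (inv_mem hx) hi r1)

theorem addJ (hx : x ∈ X) (hi : r ∈ Y ⊳ X) (hj : s ∈ Y ⊳ X) : x ⋄ (r * s) = x ⋄ r * x ⋄ s := by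
  rw [cm_right, cj_of_cm (h.cmJ (h.cmJ_mem hx hj) hi).symm]

theorem exn : ∃ x ∈ X, x ∉ 𝐍(Y) :=
  let ⟨x, hx, e, _⟩ := h.tb.nel h.hX
  ⟨x, hx, fun n => e (h.symm.sqI ⟨hx, n⟩)⟩

theorem surjJ (hx : x ∈ X) (hn : x ∉ 𝐍(Y)) (hj : a ∈ X ⊳ Y) : ∃ r ∈ Y ⊳ X, x ⋄ r = a := by
  have k : ∀ {X Y x}, (h : Al Ω X Y) → (hx : x ∈ X) → x ∉ 𝐍(Y) →
      Function.Injective fun i : ↥(Y ⊳ X) => (⟨_, h.cmJ_mem hx i.2⟩ : ↥(X ⊳ Y)) := fun h hx hn =>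
    (injective_iff_map_eq_one (MonoidHom.mk' (fun i : ↥(_ ⊳ _) => (⟨_, h.cmJ_mem hx i.2⟩ : ↥(_ ⊳ _))) fun i j =>
      Subtype.ext (h.addJ hx i.2 j.2))).2 fun i e => Subtype.ext (h.inj0 hn i.2.1 (cm_of_one (congrArg Subtype.val e)))
  obtain ⟨b, hb, n⟩ := h.symm.exn
  obtain ⟨i, e⟩ := ((k h hx hn).bijective_of_nat_card_le (Nat.card_le_card_of_injective _ (k h.symm hb n))).2 ⟨a, hj⟩
  exact ⟨i, i.2, congrArg Subtype.val e⟩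

omit [Finite G] in
theorem memW : v ∈ X ⊳ Y ⊔ Y ⊳ X ↔ ∃ j ∈ X ⊳ Y, ∃ i ∈ Y ⊳ X, j * i = v :=
  mem_sup_left_norm (((le_cent_iff.2 fun _ hi _ hj => (h.cmJ hj hi).symm)).trans (cent_le_norm _))

theorem sqW : ∀ v ∈ X ⊳ Y ⊔ Y ⊳ X, v * v = 1 :=
  sq_sup (fun _ => h.symm.sqI) (fun _ => h.sqI) (le_cent_iff.2 fun _ hi _ hj => (h.cmJ hj hi).symm)

theorem normW : X ≤ 𝐍(X ⊳ Y ⊔ Y ⊳ X) := le_norm_iff.2 fun a ha v hv => by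
  obtain ⟨j, hj, i, hi, rfl⟩ := h.memW.1 hv
  rw [← conj_mul, cj_of_cm (h.cmX ha hj.1), cj_eq_cm]
  exact mul_mem (mem_sup_left hj) (mul_mem (mem_sup_left (h.cmJ_mem ha hi)) (mem_sup_right hi))

theorem W_cm (hx : x ∈ X) (hn : x ∉ 𝐍(Y)) (hi : r ∈ X ⊳ Y ⊔ Y ⊳ X) (hv : v ∈ X ⊳ Y ⊔ Y ⊳ X)
    (e : x * r * v = v * (x * r)) : v ∈ X ⊳ Y := by
  have e := cm_cancel' e (cm_of_sq h.sqW hi hv)
  obtain ⟨j, hj, u, hu, rfl⟩ := h.memW.1 hv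
  rwa [h.inj0 hn hu.1 (cm_cancel e.symm (h.cmX hj.1 hx)).symm, mul_one]

theorem exinv (hx : x ∈ X) (hn : x ∉ 𝐍(Y)) : ∃ r ∈ Y ⊳ X, x * r * (x * r) = 1 := by
  obtain ⟨r, hr, e⟩ := h.surjJ hx hn (h.sqJ hx)
  refine ⟨r, hr, ?_⟩
  rw [show x * r * (x * r) = x * (x⁻¹ * x ⋄ r)⁻¹ * (r * r) by group, e, h.sqI hr]
  group

theorem swapJ (hx : x ∈ X) (hn : x ∉ 𝐍(Y)) (hy : y ∈ Y) (hm : y ∉ 𝐍(X)) :
    ∃ w, w * w = 1 ∧ w ⋆ Y = X ∧ w * y * w⁻¹ * x⁻¹ ∈ X ⊳ Y ∧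
      ∀ K : Subgroup G, x ∈ K → y ∈ K → X ⊳ Y ≤ K → Y ⊳ X ≤ K → w ∈ K := by
  obtain ⟨r, hr, t2⟩ := h.exinv hx hn
  obtain ⟨a, ha, s2⟩ := h.symm.exinv hy hm
  obtain ⟨j, hj, -, -, j1, -⟩ := h.fourJ
  have nY : Y ≤ 𝐍(X ⊳ Y ⊔ Y ⊳ X) := by rw [sup_comm]; exact h.symm.normW
  have cY : ∀ v ∈ X ⊳ Y ⊔ Y ⊳ X, y * a * v = v * (y * a) → v ∈ Y ⊳ X := fun v hv q =>
    h.symm.W_cm hy hm (mem_sup_right ha) (by rwa [sup_comm]) q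
  have nt := mul_mem (h.normW hx) (nY hr.1)
  have ns := mul_mem (nY hy) (h.normW ha.1)
  obtain ⟨g, hg, u, hu, e1, -, v, hv, v1, e3, e4⟩ := dih_fix (pg_of_sq h.sqW) (ne_bot_of_mem (mem_sup_left hj) j1)
    nt ns t2 s2
  have ng := zpowers_le.2 (mul_mem nt ns) hg
  have e5 := h.tb.ti (h.tb.cj h.hY g) h.hX (mem_conj.2 (cY _ (conj_mem_of_norm' ng hv) (cm_cj' e4).symm).1)
    (h.W_cm hx hn (mem_sup_right hr) hv e3.symm).1 v1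
  have hx' := mem_cj e5 hy
  have hd := mul_mem hx' (inv_mem hx)
  have hv' : x * (g * a * g⁻¹ * r⁻¹) * x⁻¹ ∈ X ⊳ Y ⊔ Y ⊳ X := conj_mem_of_norm (h.normW hx)
    (mul_mem (conj_mem_of_norm ng (mem_sup_left ha)) (inv_mem (mem_sup_right hr)))
  have e6 : u = g * y * g⁻¹ * x⁻¹ * (x * (g * a * g⁻¹ * r⁻¹) * x⁻¹) := by
    rw [← mul_inv_eq_iff_eq_mul.2 e1]; group
  generalize x * (g * a * g⁻¹ * r⁻¹) * x⁻¹ = n at hv' e6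
  have act : ∀ v ∈ X ⊳ Y ⊔ Y ⊳ X, u * v * u⁻¹ = g * y * g⁻¹ * x⁻¹ * v * (g * y * g⁻¹ * x⁻¹)⁻¹ := fun v hv => by
    rw [e6, ← cj_of_cm (cm_of_sq h.sqW hv' hv)]
    nth_rw 1 [cj_of_cm (cm_of_sq h.sqW hv' hv)]
    group
  have e7 : g * y * g⁻¹ * x⁻¹ ∈ 𝐍(Y) := by
    generalize g * y * g⁻¹ * x⁻¹ = d at hd act
    obtain ⟨i, hi, i1, ni⟩ := h.ex
    have hi' : i ∈ X ⊳ Y ⊔ Y ⊳ X := mem_sup_right ⟨hi, ni⟩
    have hd' := conj_mem_of_norm (h.normW hd) hi'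
    have := inv_fix (r := i) (inv_zp t2 s2 hu).2 (cm_of_cj (by
      rw [show u * u * i * (u * u)⁻¹ = u * (u * i * u⁻¹) * u⁻¹ by group, act _ hi', act _ hd',
        show d * (d * i * d⁻¹) * d⁻¹ = d * d * i * (d * d)⁻¹ by group, cj_of_cm (h.cmJ (h.sqJ hd) ⟨hi, ni⟩)]))
      (cm_mul (h.cmY hy hi) (h.cmJ ha ⟨hi, ni⟩))
    rw [act _ hi'] at this
    exact norm_of_conj_eq (h.tb.cj_eq h.hY h.hY hi i1 (cY _ hd' this).1)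
  have nx : x * r ∈ 𝐍(X) := mul_mem (le_norm X hx) hr.2
  refine ⟨x * r * g, ?_, by rw [← conj_conj, e5, conj_eq_of_norm nx], ?_, fun K k1 k2 k3 k4 =>
    mul_mem (mul_mem k1 (k4 hr)) (zpowers_le.2 (mul_mem (mul_mem k1 (k4 hr)) (mul_mem k2 (k3 ha))) hg)⟩
  · rw [show x * r * g * (x * r * g) = x * r * g * (x * r)⁻¹ * (x * r * (x * r)) * g by group, t2,
      (inv_zp t2 s2 hg).1]
    group
  · rw [show x * r * g * y * (x * r * g)⁻¹ * x⁻¹ = x * ((g * y * g⁻¹) ⋄ r)⁻¹ * x⁻¹ *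
      (x * (g * y * g⁻¹ * x⁻¹) * x⁻¹) by group, cj_of_cm (h.cmX hx hd),
        cj_of_cm (h.cmX hx (inv_mem (h.cmJ_mem hx' hr).1))]
    exact mul_mem (inv_mem (h.cmJ_mem hx' hr)) ⟨hd, e7⟩

theorem J_eq : X ⊳ Y = Om X := by
  refine le_antisymm (fun _ => h.symm.omI) fun a ha => ⟨ha.1, by_contra fun n => ?_⟩
  obtain ⟨y, hy, y2, -⟩ := h.tb.nel h.hY
  obtain ⟨w, -, -, e, -⟩ := h.swapJ ha.1 n hy fun e => y2 (h.sqI ⟨hy, e⟩)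
  have := (mul_mem (h.symm.omI e) ha).2.2
  rw [inv_mul_cancel_right, conj_mul, conj_eq_one_iff] at this
  exact y2 this

end Al

end Cfsg.Lib.TIB
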