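import Cfsg.Agent.Lib.TIB.Pair
import Cfsg.Agent.Lib.PLocal.BaerSuzuki
import Cfsg.Agent.Lib.Comp.GenFitting
import Cfsg.Agent.S1783

/-! Commuting neighbours. -/

set_option autoImplicit false

namespace Cfsg.Lib.TIB

open Subgroup Cfsg.Lib.BG Cfsg.Lib.Transfer Cfsg.Lib.GW Cfsg.Lib.TIW
open Cfsg.Lib.Inv hiding conj_mem_of_mem_normalizer
open scoped Cfsg.Lib.Transfer

variable {G : Type*} [Group G] {Ω S : Set (Subgroup G)} {E F K M P U V X Y Z : Subgroup G}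
  {a b c d g k r s t u v w x y z : G}

theorem conj_sSup_le (h : ∀ F ∈ S, g ⋆ F ≤ K) : g ⋆ sSup S ≤ K :=
  conj_le_iff_le_inv_conj.2 (sSup_le fun F hF => conj_le_iff_le_inv_conj.1 (h F hF))

theorem sSup_cent (h : ∀ F ∈ S, ∀ F' ∈ S, F ≤ 𝐂(F')) : sSup S ≤ 𝐂(sSup S) :=
  sSup_le fun F hF => cent_symm (sSup_le fun F' hF' => h F' hF' F hF)

theorem sq_of_gen (cU : U ≤ 𝐂(U)) (h : ∀ F ∈ S, ∀ x ∈ F, x * x = 1) (e : U ≤ sSup S) (e' : sSup S ≤ U) :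
    ∀ x ∈ U, x * x = 1 := fun _ hx =>
  om_sq (sSup_le (a := Om U) (fun F hF y hy =>
    ⟨e' (le_sSup hF hy), cU (e' (le_sSup hF hy)), h F hF y hy⟩) (e hx))

/-- The join of the conjugates of `Y` under `F`. -/
def Nc (F Y : Subgroup G) : Subgroup G := sSup {W | ∃ a ∈ F, a ⋆ Y = W}

theorem cj_le_nc (ha : a ∈ F) : a ⋆ Y ≤ Nc F Y := le_sSup ⟨a, ha, rfl⟩

theorem le_nc (F Y : Subgroup G) : Y ≤ Nc F Y := (conj_one Y).ge.trans (cj_le_nc (one_mem F))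

theorem norm_nc (F Y : Subgroup G) : F ≤ 𝐍(Nc F Y) := le_norm_iff.2 fun a ha => conj_le_iff.1
  (conj_sSup_le (by rintro _ ⟨b, hb, rfl⟩; rw [conj_conj]; exact cj_le_nc (mul_mem ha hb)))

theorem ab_nc (h : ∀ a ∈ F, a ⋆ Y ≤ 𝐂(Y)) : Nc F Y ≤ 𝐂(Nc F Y) := sSup_cent (by
  rintro _ ⟨a, ha, rfl⟩ _ ⟨b, hb, rfl⟩
  rw [← conj_centralizer, le_conj_iff_inv_conj_le, conj_conj]
  exact h _ (mul_mem (inv_mem hb) ha))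

variable [Finite G]

theorem norm_sSup (h : ∀ F ∈ S, g ⋆ F ≤ sSup S) : g ∈ 𝐍(sSup S) := mem_normalizer_of_conj_le (conj_sSup_le h)

theorem pg_of_gen (cU : sSup S ≤ 𝐂(sSup S)) (h : ∀ F ∈ S, IsPGroup 2 F) : IsPGroup 2 ↥(sSup S) :=
  pgroup_of_le (pcore_pgroup 2 (sSup S)) (sSup_le fun F hF => pcore_max_p (h F hF)
    ⟨le_sSup hF, norm_of_cent (cU.trans (cent_anti (le_sSup hF)))⟩)

theorem wcl (hP : IsPGroup 2 P) (hE : E ≤ P) (gen : E ≤ sSup {F | F ∈ S ∧ F ≤ E}) (cl : ∀ F ∈ S, ∀ g : G, g ⋆ F ∈ S)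
    (k : ∀ F ∈ S, F ≤ P → F ≤ 𝐍(E) → F ≤ E) : P ≤ 𝐍(E) := by
  by_contra n
  refine (lt_inf_normalizer_of_lt hP (H := P ⊓ 𝐍(E)) (inf_lt_left.2 n)).not_ge fun g hg => ⟨hg.1, ?_⟩
  refine mem_normalizer_of_conj_le ((conj_mono g gen).trans (conj_sSup_le fun F hF => ?_))
  have := conj_le_of_norm (hF.2.trans (le_inf hE (le_norm E))) hg.2
  exact k _ (cl F hF.1 g) (this.trans inf_le_left) (this.trans inf_le_right)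

theorem mfam (hP : IsPGroup 2 P) (cl : ∀ F ∈ S, ∀ g : G, g ⋆ F ∈ S) (ab : ∀ F ∈ S, F ≤ 𝐂(F))
    (k : ∀ E ≤ P, E ≤ 𝐂(E) → ∀ Z ∈ S, Z ≤ 𝐍(E) → ∀ F ∈ S, F ≤ E → F ≤ 𝐂(Z))
    (hY : Y ∈ S) (hZ : Z ∈ S) (h1 : Y ≤ P) (h2 : Z ≤ P) : Y ≤ 𝐂(Z) := by
  obtain ⟨E, ⟨e1, e2, e3⟩, mx⟩ := (Set.toFinite
    {E : Subgroup G | E ≤ P ∧ E ≤ 𝐂(E) ∧ E ≤ sSup {F | F ∈ S ∧ F ≤ E}}).exists_maximal ⟨⊥, bot_le, bot_le, bot_le⟩
  have q : ∀ F ∈ S, F ≤ P → F ≤ 𝐍(E) → F ≤ E := fun F hF f1 f2 => by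
    have c : E ≤ 𝐂(F) := e3.trans (sSup_le fun W hW => k E e1 e2 F hF f2 W hW.1 hW.2)
    refine le_sup_right.trans (mx (y := E ⊔ F) ⟨sup_le e1 f1, sup_le (le_cent_sup e2 c)
      (le_cent_sup (cent_symm c) (ab F hF)), sup_le (e3.trans (sSup_le_sSup fun W hW =>
        ⟨hW.1, hW.2.trans le_sup_left⟩)) (le_sSup ⟨hF, le_sup_right⟩)⟩ le_sup_left)
  have n := wcl hP e1 e3 cl q
  exact cent_mono e2 (q Y hY h1 (h1.trans n)) (q Z hZ h2 (h2.trans n))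

theorem two_of_odd (h : ∀ x ∈ zpowers g, Odd (orderOf x) → x = 1) : IsPGroup 2 (zpowers g) := by
  obtain ⟨y, -, z, hz, p1, p2, e, -⟩ := exists_pi_decomp {2} g
  rw [h z hz (piElt_odd_iff.1 p2), mul_one] at e
  exact e ▸ p1.zpowers.pgroup

theorem bs (ht : t ∈ M) (t2 : t * t = 1) (h : ∀ m ∈ M, IsPGroup 2 (zpowers (t * (m * t * m⁻¹)))) :
    t ∈ 𝐎({2}, M) := by
  by_contra n
  rw [pcore_p_eq] at n
  obtain ⟨m, hm, e⟩ := PLocal.exists_conj_not_isPGroup_of_not_mem_pCore_map ht n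
  refine e (pgroup_of_le (pgroup_sup (h m hm) (isPGroup_zpowers_of_mul_self t2) (zp_norm.2 (norm_of_conj_eq ?_)))
    ((closure_le _).2 ?_))
  · rw [conj_zpowers, pair_left_inv t2 (sq_cj m t2), zpowers_inv]
  · rintro _ (rfl | rfl)
    · exact mem_sup_right (mem_zpowers _)
    · simpa [sq_l t2] using mul_mem (mem_sup_right (mem_zpowers t)) (mem_sup_left (mem_zpowers (t * (m * t * m⁻¹))))

theorem two_step (ho : Odd (orderOf x)) (hK : IsPGroup 2 K) (hc : x ∈ 𝐂(K)) (e : x ⋄ g ∈ K) : x * g = g * x := by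
  have k : ∀ n : ℕ, x ^ n * g * (x ^ n)⁻¹ = (x ⋄ g) ^ n * g := fun n => by
    induction n with
    | zero => simp
    | succ n ih =>
      rw [pow_succ', show x * x ^ n * g * (x * x ^ n)⁻¹ = x * (x ^ n * g * (x ^ n)⁻¹) * x⁻¹ by group, ih,
        ← conj_mul, cj_of_cm (mem_cent.1 hc _ (pow_mem e n)).symm, pow_succ]
      group
  have := k (orderOf x)
  rw [pow_orderOf_eq_one, inv_one, mul_one, one_mul, eq_comm, mul_eq_right] at this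
  exact cm_of_one (eq_one_of_two hK e (ho.of_dvd_nat (orderOf_dvd_of_pow_eq_one this)))

/-- `O₂(N(X))`. -/
abbrev Qm (X : Subgroup G) : Subgroup G := 𝐎({2}, 𝐍(X))

theorem pgQ (X : Subgroup G) : IsPGroup 2 (Qm X) := pcore_pgroup 2 _

omit [Finite G] in
theorem Q_le (X : Subgroup G) : Qm X ≤ 𝐍(X) := pcore_le _ _

omit [Finite G] in
theorem normQ (X : Subgroup G) : 𝐍(X) ≤ 𝐍(Qm X) := (pcore_nml _ _).norm

theorem le_Q (hP : IsPGroup 2 P) (h1 : P ≤ 𝐍(X)) (h2 : 𝐍(X) ≤ 𝐍(P)) : P ≤ Qm X := pcore_max_p hP ⟨h1, h2⟩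

theorem pgQ_sup (hP : IsPGroup 2 P) (h1 : P ≤ 𝐍(X)) : IsPGroup 2 ↥(Qm X ⊔ P) :=
  pgroup_sup (pgQ X) hP (h1.trans (normQ X))

/-- The join of the groups `Om Z` over the members `Z` commuting with `X`. -/
def Vb (Ω : Set (Subgroup G)) (X : Subgroup G) : Subgroup G := sSup {W | ∃ Z ∈ Ω, Z ≤ 𝐂(X) ∧ Om Z = W}

omit [Finite G] in
theorem le_vb (hZ : Z ∈ Ω) (e : Z ≤ 𝐂(X)) : Om Z ≤ Vb Ω X := le_sSup ⟨Z, hZ, e, rfl⟩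

omit [Finite G] in
theorem vb_le (h : ∀ Z ∈ Ω, Z ≤ 𝐂(X) → Om Z ≤ K) : Vb Ω X ≤ K :=
  sSup_le (by rintro _ ⟨Z, hZ, e, rfl⟩; exact h Z hZ e)

omit [Finite G] in
theorem vb_cent (X : Subgroup G) : Vb Ω X ≤ 𝐂(X) := vb_le fun Z _ e => (om_le Z).trans e

namespace Tb

variable (h : Tb Ω)
include h

theorem le_Qm (hX : X ∈ Ω) : X ≤ Qm X := le_Q (h.pg hX) (le_norm X) le_rfl

theorem odd_one (hX : X ∈ Ω) (hx : x ∈ 𝐍(X)) (ho : Odd (orderOf x)) (hc : x ∈ 𝐂(Qm X)) : x = 1 :=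
  eq_one_of_two (pgQ X) (h.ch hX ⟨hx, hc⟩) ho

theorem comm_two (hP : IsPGroup 2 P) (hY : Y ∈ Ω) (hZ : Z ∈ Ω) (h1 : Y ≤ P) (h2 : Z ≤ P) : Y ≤ 𝐂(Z) := by
  refine mfam hP (fun F hF => h.cj hF) (fun F hF => h.ab hF) (fun E e1 e2 Z hZ n F hF e => ?_) hY hZ h1 h2
  by_cases q : ∀ u ∈ E, u ∈ Z → u = 1
  · obtain ⟨z, hz, z2, -⟩ := h.nel hZ
    exact cent_symm (h.cent_of_nel hF hZ hz z2 (cent_le_norm F (cent_anti e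
      (h.lemJ hZ (pgroup_of_le hP e1) e2 q hz z2 (n hz)))))
  · push Not at q
    obtain ⟨u, hu, hu', u1⟩ := q
    obtain ⟨z, hz, z2, -⟩ := h.nel hF
    exact h.cent_of_nel hZ hF hz z2 (h.norm_of_cm hZ hu' u1 (le_cent_iff.1 e2 z (e hz) u hu))

theorem comm_Q (hY : Y ∈ Ω) (e : Y ≤ 𝐍(X)) (hx : x ∈ Qm X) : x ⋆ Y ≤ 𝐂(Y) :=
  h.comm_two (pgQ_sup (h.pg hY) e) (h.cj hY x) hY (conj_le_of_mem le_sup_right (mem_sup_left hx)) le_sup_right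

theorem sq_Q (hX : X ∈ Ω) (hY : Y ∈ Ω) (e : Y ≤ 𝐍(X)) (hy : y ∈ Y) : y * y ∈ Qm X := by
  have c : centralizer (pCore 2 𝐍(X) : Set 𝐍(X)) ≤ pCore 2 𝐍(X) := fun g hg => by
    have := h.ch hX (show g.1 ∈ _ from ⟨g.2, by
      rw [pcore_p_eq]; exact map_cent 𝐍(X).subtype (le_refl _) (mem_map_of_mem _ hg)⟩)
    rw [pcore_p_eq] at this
    exact (mem_map_iff_mem 𝐍(X).subtype_injective).1 this
  have := (Agent.S1783.result (Comp.genFitting_eq_pCore_iff_centralizer_le.2 c) (Y.subgroupOf 𝐍(X))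
    ((h.pg hY).comap_subtype) ⟨⟨fun a b => Subtype.ext (Subtype.ext (h.cm hY a.2 b.2))⟩⟩ fun g => ?_).1
      (subset_closure ⟨⟨y, e hy⟩, hy, rfl⟩)
  · rw [Qm, pcore_p_eq, ← pow_two]
    exact mem_map_of_mem 𝐍(X).subtype this
  · refine (em _).imp_right fun n => (eq_bot_iff_forall _).2 fun a ha => by_contra fun a1 => n ?_
    have q := h.ti (h.cj hY g) hY (mem_conj.2 (mem_conj.1 ha.1 :)) ha.2 fun e => a1 (Subtype.ext e)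
    ext b
    rw [mem_conj, mem_subgroupOf, mem_subgroupOf]
    nth_rw 2 [← q]
    exact mem_conj.symm

theorem om_le_Q (hY : Y ∈ Ω) (e : Om Y ≤ 𝐍(X)) (c : ∀ x ∈ Qm X, x ⋆ Om Y ≤ 𝐂(Om Y)) (hs : s ∈ Om Y)
    (s1 : s ≠ 1) (hq : s ∈ Qm X) : Om Y ≤ Qm X := fun t ht => bs (e ht) ht.2.2 fun m hm => by
  have hs' := om_cj m hs
  have ht' := om_cj m ht
  have e1 := mem_cent.1 (c _ (conj_mem_of_norm (normQ X hm) hq) (conj_mem_conj.2 ht)) t ht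
  have hW := h.cj hY m
  have s1 := cj_ne (g := m) s1
  generalize m * s * m⁻¹ = s', m * t * m⁻¹ = t', m ⋆ Y = W at *
  have e2 := mem_cent.1 (h.om_cent' hW (h.cj hW t) hs'.1 s1 (conj_mem_conj.2 hs'.1) (cj_ne s1) (by
    rw [om_inv hs'] at e1
    rw [om_inv ht]
    simpa only [mul_assoc] using e1.symm) (om_cj t ht')) t' ht'
  refine isPGroup_zpowers (k := 2) ?_
  have e3 := sq_mul (sq_cj t ht'.2.2) ht'.2.2 e2.symm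
  rw [om_inv ht] at e3
  rw [← e3]
  group
  simp only [pow_succ, zpow_ofNat, pow_zero, one_mul, mul_assoc]

omit [Finite G] in
theorem kk (hY : Y ∈ Ω) (hZ : Z ∈ Ω) (c : ∀ a ∈ Om Z, a ⋆ Y ≤ 𝐂(Y)) : ∃ r ∈ Y, r ≠ 1 ∧ r ∈ 𝐍(Z) := by
  obtain ⟨y, hy, y2, -⟩ := h.nel hY
  by_cases q : ∀ u ∈ Nc (Om Z) Y, u ∈ Z → u = 1
  · obtain ⟨s, hs, t, ht, s1, t1, ne⟩ := h.four hZ
    exact ⟨_, mul_mem hy hy, y2, h.norm_of_cm hZ (mul_mem hs.1 ht.1) (fun q => ne (by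
      rw [eq_inv_of_mul_eq_one_left q, om_inv ht])) (h.k0 hZ (ab_nc c) q hs ht s1 t1 (norm_nc _ _ hs) (norm_nc _ _ ht)
        (le_nc _ _ hy)).symm⟩
  · push Not at q
    obtain ⟨u, hu, hu', u1⟩ := q
    exact ⟨y, hy, fun e => y2 (by rw [e, one_mul]), h.norm_of_cm hZ hu' u1
      (le_cent_iff.1 (ab_nc c) y (le_nc _ _ hy) u hu)⟩

theorem kk' (hY : Y ∈ Ω) (hZ : Z ∈ Ω) (c : ∀ a ∈ Om Z, a ⋆ Y ≤ 𝐂(Y)) : Om Y ≤ 𝐂(Om Z) :=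
  let ⟨_, hr, r1, n⟩ := h.kk hY hZ c
  h.om_cent hZ hY hr r1 n

theorem be_Q (hX : X ∈ Ω) (hY : Y ∈ Ω) (e : Y ≤ 𝐂(X)) : Om Y ≤ Qm X := by
  have n := e.trans (cent_le_norm X)
  obtain ⟨y, hy, y2, y4⟩ := h.nel hY
  exact h.om_le_Q hY ((om_le Y).trans n) (fun x hx => cent_mono (h.comm_Q hY n hx) (conj_mono x (om_le Y)) (om_le Y))
    (h.mem_om hY (mul_mem hy hy) y4) y2 (h.sq_Q hX hY n hy)

theorem be_be (hX : X ∈ Ω) (hY : Y ∈ Ω) (hZ : Z ∈ Ω) (e : Y ≤ 𝐂(X)) (e' : Z ≤ 𝐂(X)) : Om Y ≤ 𝐂(Om Z) :=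
  h.kk' hY hZ fun _ ha => h.comm_Q hY (e.trans (cent_le_norm X)) (h.be_Q hX hZ e' ha)

theorem om_vb (hX : X ∈ Ω) : Om X ≤ Vb Ω X := le_vb hX (h.ab hX)

theorem ab_vb (hX : X ∈ Ω) : Vb Ω X ≤ 𝐂(Vb Ω X) := sSup_cent (by
  rintro _ ⟨Y, hY, e, rfl⟩ _ ⟨Z, hZ, e', rfl⟩
  exact h.be_be hX hY hZ e e')

theorem sq_vb (hX : X ∈ Ω) : ∀ v ∈ Vb Ω X, v * v = 1 :=
  sq_of_gen (h.ab_vb hX) (by rintro _ ⟨Y, -, -, rfl⟩ _; exact om_sq) le_rfl le_rfl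

omit [Finite G] in
theorem conj_vb_le (g : G) (X : Subgroup G) : g ⋆ Vb Ω X ≤ Vb Ω (g ⋆ X) := conj_sSup_le (by
  rintro _ ⟨Y, hY, e, rfl⟩
  rw [conj_om]
  exact le_vb (h.cj hY g) (conj_centralizer g X ▸ conj_mono g e))

theorem norm_vb (X : Subgroup G) : 𝐍(X) ≤ 𝐍(Vb Ω X) := fun g hg =>
  mem_normalizer_of_conj_le (by simpa only [conj_eq_of_norm hg] using h.conj_vb_le g X)

theorem vb_Q (hX : X ∈ Ω) : Vb Ω X ≤ Qm X := vb_le fun _ hZ => h.be_Q hX hZ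

theorem exists_al (hX : X ∈ Ω) (hY : Y ∈ Ω) (ne : X ≠ Y) (e : Y ≤ 𝐂(X)) :
    ∃ X ∈ Ω, ∃ Y Z, Y ≤ 𝐂(X) ∧ Z ≤ 𝐂(X) ∧ Al Ω Y Z := by
  by_contra! n
  have c : ∀ X ∈ Ω, ∀ Y ∈ Ω, ∀ Z ∈ Ω, Y ≤ 𝐂(X) → Z ≤ 𝐂(X) → Z ≤ 𝐂(Y) := fun X hX Y hY Z hZ e e' =>
    (h.tri' hY hZ (h.be_be hX hZ hY e' e)).resolve_right (n X hX Y Z e e')
  have k : ∀ (g : G) (X : Subgroup G), g ⋆ sSup {Z | Z ∈ Ω ∧ Z ≤ 𝐂(X)} ≤ sSup {Z | Z ∈ Ω ∧ Z ≤ 𝐂(g ⋆ X)} :=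
    fun g X => conj_sSup_le fun Z hZ => le_sSup ⟨h.cj hZ.1 g, conj_centralizer g X ▸ conj_mono g hZ.2⟩
  obtain ⟨g, rfl⟩ := h.tr hX hY
  refine ne (conj_eq_of_norm (h.mx hX (pg_of_gen (S := {Z | Z ∈ Ω ∧ Z ≤ 𝐂(X)}) (sSup_cent fun Z hZ W hW =>
    c X hX W hW.1 Z hZ.1 hW.2 hZ.2) fun Z hZ => h.pg hZ.1) (ne_bot_mono (h.ne_bot hX) (le_sSup ⟨hX, h.ab hX⟩))
      (fun m hm => mem_normalizer_of_conj_le (by simpa only [conj_eq_of_norm hm] using k m X))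
      (mem_normalizer_of_conj_le ((k g X).trans (sSup_le_sSup fun Z hZ =>
        ⟨hZ.1, c _ hY X hX Z hZ.1 (cent_symm e) hZ.2⟩))))).symm

end Tb

end Cfsg.Lib.TIB
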