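import Cfsg.Agent.Lib.TIB.Quad

/-! Existence of quadratic pairs; there are no commuting neighbours. -/

set_option autoImplicit false

namespace Cfsg.Lib.TIB

open Subgroup Cfsg.Lib.BG Cfsg.Lib.Transfer Cfsg.Lib.GW Cfsg.Lib.TIW
open Cfsg.Lib.Inv hiding conj_mem_of_mem_normalizer
open scoped Cfsg.Lib.Transfer

variable {G : Type*} [Group G] {Ω S : Set (Subgroup G)} {A E F K M P U V W X Y Y' Z : Subgroup G}
  {a b c d g k q r s t t' u v w x y z : G}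

/-- The elements centralizing `t` modulo `V`. -/
def Cv (V : Subgroup G) (t : G) : Subgroup G where
  carrier := {u | u ∈ 𝐍(V) ∧ u ⋄ t ∈ V}
  one_mem' := ⟨one_mem _, by simp⟩
  mul_mem' h k := ⟨mul_mem h.1 k.1, by rw [cm_left]; exact mul_mem (conj_mem_of_norm h.1 k.2) h.2⟩
  inv_mem' {u} h := ⟨inv_mem h.1, by
    rw [show u⁻¹ ⋄ t = u⁻¹ * (u ⋄ t)⁻¹ * u by group]; exact conj_mem_of_norm' h.1 (inv_mem h.2)⟩

/-- The elements acting trivially on `A / Z`. -/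
def Sq (A Z : Subgroup G) : Subgroup G where
  carrier := {x | x ∈ 𝐍(Z) ∧ ∀ a ∈ A, a ⋄ x ∈ Z}
  one_mem' := ⟨one_mem _, fun a _ => by simp⟩
  mul_mem' h k := ⟨mul_mem h.1 k.1, fun a ha => by
    rw [cm_right]; exact mul_mem (h.2 a ha) (conj_mem_of_norm h.1 (k.2 a ha))⟩
  inv_mem' {x} h := ⟨inv_mem h.1, fun a ha => by
    rw [show a ⋄ x⁻¹ = x⁻¹ * (a ⋄ x)⁻¹ * x by group]; exact conj_mem_of_norm' h.1 (inv_mem (h.2 a ha))⟩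

theorem Sq.mk (h : x ∈ 𝐍(Z)) (e : ∀ a ∈ A, a ⋄ x ∈ Z) : x ∈ Sq A Z := ⟨h, e⟩

variable [Finite G]

theorem cent_step (ho : Odd (orderOf x)) (hK : IsPGroup 2 K) (hc : x ∈ 𝐂(K)) (e : ∀ a ∈ A, a ⋄ x ∈ K) : x ∈ 𝐂(A) :=
  mem_cent.2 fun a ha => (two_step ho hK hc (by rw [cm_swap]; exact inv_mem (e a ha))).symm

theorem Tb.cent_of_inv (h : Tb Ω) (hX : X ∈ Ω) (hW : W ∈ Ω) (hv : v ∈ W) (v1 : v ≠ 1) (e : v ∈ 𝐂(X)) : W ≤ 𝐂(X) :=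
  let ⟨x, hx, x2, _⟩ := h.nel hX
  cent_symm (h.cent_of_nel hW hX hx x2 (h.norm_of_cm hW hv v1 (mem_cent.1 e x hx)))

theorem Al.cj_cent (h : Al Ω X Y) (hu : u ∈ 𝐂(Om X)) (hr : r ∈ Om Y) : r * (u * r * u⁻¹) ∈ 𝐂(X) :=
  mem_cent.2 fun x hx => h.cm_eq hx hr (TIW.cj_cent (cent_le_norm _ hu) (h.cent hr)) (by
    have m := h.cm_om' h.hX hx (inv_mem hu)
    have n := inv_mem (h.tb.cent_om_le h.hX hu)
    rw [show x ⋄ (u * r * u⁻¹) = u * (u⁻¹ * x * u⁻¹⁻¹) ⋄ r * u⁻¹ by group,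
      cj_of_cm (mem_cent.1 hu _ (h.cm_mem (conj_mem_of_norm n hx) hr)).symm,
      show u⁻¹ * x * u⁻¹⁻¹ = (x ⋄ u⁻¹)⁻¹ * x by group, om_cm (inv_mem m) hx, h.cm_a hx (inv_mem m) hr])

section NoQuad

variable (n : ∀ X Y Z, ¬ Qd Ω X Y Z)
include n

theorem Tb.om_two (h : Tb Ω) (hP : IsPGroup 2 P) (hY : Y ∈ Ω) (hZ : Z ∈ Ω) (h1 : Om Y ≤ P) (h2 : Om Z ≤ P) :
    Om Y ≤ 𝐂(Om Z) := by
  refine mfam (S := {A | ∃ W ∈ Ω, Om W = A}) hP ?_ ?_ ?_ ⟨Y, hY, rfl⟩ ⟨Z, hZ, rfl⟩ h1 h2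
  · rintro _ ⟨W, hW, rfl⟩ g
    exact ⟨_, h.cj hW g, (conj_om g W).symm⟩
  · rintro _ ⟨W, hW, rfl⟩
    exact (om_le W).trans (cent_om W)
  · rintro E - e _ ⟨Z, hZ, rfl⟩ nE _ ⟨F, hF, rfl⟩ l
    by_contra q
    obtain ⟨X, k⟩ := Qh.qd ⟨h, hF, hZ, q, fun a ha => cent_mono e (conj_le_of_norm l (nE ha)) l⟩
    exact n _ _ _ k

theorem Al.vb_cent (h : Al Ω X Y) : Vb Ω X ≤ 𝐂(Om Y) := vb_le fun _ hZ e =>
  h.tb.om_two n (pgQ_sup (pg_om Y) fun _ => h.norm') hZ h.hY ((h.tb.be_Q h.hX hZ e).trans le_sup_left) le_sup_right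

theorem Al.cQ (h : Al Ω X Y) (hq : q ∈ Qm X) : q ⋆ Om Y ≤ 𝐂(Om Y) := by
  rw [conj_om]
  exact h.tb.om_two n (pgQ_sup (pg_om Y) fun _ => h.norm') (h.tb.cj h.hY q) h.hY
    (conj_om q Y ▸ conj_le_of_mem le_sup_right (mem_sup_left hq)) le_sup_right

theorem Al.key (h : Al Ω X Y) (o : ∀ s ∈ Om Y, s ∈ Qm X → s = 1) (hu : u ∈ Qm X) (u2 : u * u = 1)
    (hc : u ∈ 𝐂(Om X)) (ht : t ∈ Om Y) : u ⋄ t ∈ Vb Ω X := by
  have eQ : u ⋄ t ∈ Qm X := cm_mem_left (normQ X (h.norm' ht)) hu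
  have c := h.vb_cent n
  have fin : u ⋄ t ∈ Vb Ω X ⊔ Om Y → u ⋄ t ∈ Vb Ω X := fun e => by
    obtain ⟨v, hv, r, hr, e⟩ := (mem_sup_left_norm (norm_of_cent (cent_symm c))).1 e
    rwa [← e, o r hr ((mul_mem_cancel_left (h.tb.vb_Q h.hX hv)).1 (e ▸ eQ)), mul_one]
  refine fin ?_
  obtain e | e := h.tb.tri' h.hY (h.tb.cj h.hY u) (conj_om u Y ▸ h.cQ n hu)
  · obtain ⟨x, hx, hn⟩ := h.tb.exn h.hX
    obtain ⟨y, hy, hm⟩ := h.tb.exn h.hY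
    obtain ⟨w, -, e1, -, -, e2⟩ := h.swap hx hn hy hm
    have l : Om X ≤ Vb Ω X ⊔ Om Y := (h.tb.om_vb h.hX).trans le_sup_left
    have nw := e2 𝐍(Vb Ω X ⊔ Om Y) (mem_normalizer_of_conj_le (by
        rw [conj_sup, conj_eq_of_cent (cent_symm (TIB.vb_cent X) hx)]
        refine sup_le le_sup_left (conj_le_iff.2 fun r hr => ?_)
        rw [cj_eq_cm]
        exact mul_mem (l (h.cm_mem hx hr)) (mem_sup_right hr)))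
      (mem_normalizer_of_conj_le (by
        rw [conj_sup, conj_eq_of_cent (cent_om Y hy)]
        refine sup_le (conj_le_iff.2 fun r hr => ?_) le_sup_right
        rw [cj_eq_cm]
        exact mul_mem (mem_sup_right (h.cm_om' h.hY hy (c hr))) (mem_sup_left hr)))
      (le_norm_of_le l) (le_norm_of_le le_sup_right)
    have := h.tb.conj_vb_le w Y (conj_mem_conj.2 (le_vb (h.tb.cj h.hY u) e (om_cj u ht)))
    rw [e1] at this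
    exact mul_mem (by simpa [mul_assoc] using conj_mem_of_norm' nw (mem_sup_left this)) (mem_sup_right (inv_mem ht))
  · obtain ⟨W, k, -, l, ⟨v, hv, v1, e1⟩, -⟩ := e.lemI u2
    obtain ⟨r, hr, s, hs, rfl⟩ := e.memV.1 (l hv)
    rw [← conj_om] at hs
    obtain ⟨s, hs, rfl⟩ := hs
    replace e1 : u * (r * (u * s * u⁻¹)) * u⁻¹ = r * (u * s * u⁻¹) := cj_of_cm e1
    rw [← conj_mul, cj_cj u2, ← e.cm hs (om_cj u hr)] at e1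
    have e2 : r⁻¹ * s = u * s * u⁻¹ * (u * r * u⁻¹)⁻¹ := by
      rw [eq_mul_inv_iff_mul_eq, mul_assoc, e1, inv_mul_cancel_left]
    obtain rfl := inv_mul_eq_one.1 (e.eq_one (mul_mem (inv_mem hr) hs).1
      (e2 ▸ (mul_mem (om_cj u hs) (inv_mem (om_cj u hr))).1))
    have lW := le_vb k.hX (h.tb.cent_of_inv h.hX k.hX hv.1 v1 (h.cj_cent hc hr))
    refine sup_le_sup_right lW _ ((e.symm.V_eq k (l.trans (sup_comm ..).le)).ge ?_)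
    exact mul_mem (mem_sup_left (om_cj u ht)) (mem_sup_right (inv_mem ht))

theorem Al.cm_Q1 (h : Al Ω X Y) (h' : Al Ω X Y') (o : ∀ s ∈ Om Y', s ∈ Qm X → s = 1) (ht : t ∈ Om Y)
    (ht' : t' ∈ Om Y') (hq : q ∈ Qm X) : q ⋄ t ∈ Qm X ∧ q ⋄ t ∈ Cv (Vb Ω X) t ∧ q ⋄ t ∈ Cv (Vb Ω X) t' := by
  have eQ : q ⋄ t ∈ Qm X := cm_mem_left (normQ X (h.norm' ht)) hq
  have nV := h.tb.norm_vb X (Q_le X eQ)
  have c := mem_cent.1 (h.cQ n hq (conj_mem_conj.2 ht)) t ht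
  refine ⟨eQ, ⟨nV, ?_⟩, nV, h'.key n o eQ ?_ ?_ ht'⟩
  · rw [one_of_cm (cm_mul c.symm (cm_inv rfl))]; exact one_mem _
  · rw [om_inv ht]; exact sq_mul (sq_cj q ht.2.2) ht.2.2 c.symm
  · exact mul_mem ((h.conjX (Q_le X hq)).cent (om_cj q ht)) (inv_mem (h.cent ht))

theorem Al.om_Q (h : Al Ω X Y) : Om Y ≤ Qm X := by
  by_cases o : ∀ s ∈ Om Y, s ∈ Qm X → s = 1
  swap
  · push Not at o
    obtain ⟨s, hs, hq, s1⟩ := o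
    exact h.tb.om_le_Q h.hY (fun _ => h.norm') (fun _ => h.cQ n) hs s1 hq
  refine fun t ht => bs (h.norm' ht) ht.2.2 fun m hm => two_of_odd fun x hx ho => ?_
  have h' := h.conjX hm
  have ht' := om_cj m ht
  have o' : ∀ s ∈ Om (m ⋆ Y), s ∈ Qm X → s = 1 := fun s hs hq => by
    simpa [mul_assoc] using congrArg (m * · * m⁻¹)
      (o _ (mem_conj.1 (conj_om m Y ▸ hs)) (conj_mem_of_norm' (normQ X hm) hq))
  generalize m * t * m⁻¹ = t', m ⋆ Y = Y' at *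
  have lV : Vb Ω X ≤ Qm X ⊓ Cv (Vb Ω X) t ⊓ Cv (Vb Ω X) t' := fun v hv =>
    ⟨⟨h.tb.vb_Q h.hX hv, le_norm _ hv, by rw [one_of_cm (mem_cent.1 (h.vb_cent n hv) t ht).symm]; exact one_mem _⟩,
      le_norm _ hv, by rw [one_of_cm (mem_cent.1 (h'.vb_cent n hv) t' ht').symm]; exact one_mem _⟩
  have nn : ∀ {s}, (∀ a ∈ Qm X ⊓ Cv (Vb Ω X) t ⊓ Cv (Vb Ω X) t', a ⋄ s ∈ Vb Ω X) →
      s ∈ 𝐍(Qm X ⊓ Cv (Vb Ω X) t ⊓ Cv (Vb Ω X) t') := fun e => mem_normalizer_of_conj_le (conj_le_iff.2 fun a ha => by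
    rw [cj_eq_cm, cm_swap]
    exact mul_mem (lV (inv_mem (e a ha))) ha)
  have c1 : x ∈ 𝐂(Vb Ω X) := zpowers_le.2 (mul_mem (cent_symm (h.vb_cent n) ht) (cent_symm (h'.vb_cent n) ht')) hx
  have s1 : x ∈ Sq (Qm X ⊓ Cv (Vb Ω X) t ⊓ Cv (Vb Ω X) t') (Vb Ω X) := by
    refine zpowers_le.2 (mul_mem ?_ ?_) hx
    exacts [Sq.mk (h.tb.norm_vb X (h.norm' ht)) fun _ ha => ha.1.2.2,
      Sq.mk (h.tb.norm_vb X (h'.norm' ht')) fun _ ha => ha.2.2]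
  have s2 : x ∈ Sq (Qm X) (Qm X ⊓ Cv (Vb Ω X) t ⊓ Cv (Vb Ω X) t') := zpowers_le.2 (mul_mem
    (Sq.mk (nn fun _ ha => ha.1.2.2) fun _ hq => let ⟨e1, e2, e3⟩ := h.cm_Q1 n h' o' ht ht' hq; ⟨⟨e1, e2⟩, e3⟩)
    (Sq.mk (nn fun _ ha => ha.2.2) fun _ hq => let ⟨e1, e2, e3⟩ := h'.cm_Q1 n h o ht' ht hq; ⟨⟨e1, e3⟩, e2⟩)) hx
  exact h.tb.odd_one h.hX (zpowers_le.2 (mul_mem (h.norm' ht) (h'.norm' ht')) hx) ho
    (cent_step ho (pgroup_of_le (pgQ X) (inf_le_left.trans inf_le_left))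
      (cent_step ho (pg_of_sq (h.tb.sq_vb h.hX)) c1 s1.2) s2.2)

end NoQuad

theorem Al.exists_qd (h : Al Ω X Y) : ∃ X Y Z, Qd Ω X Y Z := by
  by_contra! n
  let R := sSup {A | ∃ Z ∈ Ω, Om Z ≤ 𝐂(Om X) ∧ Om Z = A}
  have l : ∀ {Z}, Z ∈ Ω → Om Z ≤ 𝐂(Om X) → Om Z ≤ R := fun hZ e => le_sSup ⟨_, hZ, e, rfl⟩
  have q : ∀ {Z}, Z ∈ Ω → Om Z ≤ 𝐂(Om X) → Om Z ≤ Qm X := fun hZ e =>
    (h.tb.tri' h.hX hZ e).elim (h.tb.be_Q h.hX hZ) fun k => k.om_Q n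
  have rq : R ≤ Qm X := sSup_le (by rintro _ ⟨Z, hZ, e, rfl⟩; exact q hZ e)
  have c : R ≤ 𝐂(Om Y) := sSup_le (by
    rintro _ ⟨Z, hZ, e, rfl⟩; exact h.tb.om_two n (pgQ X) hZ h.hY (q hZ e) (q h.hY h.cent))
  obtain ⟨y, hy, hm⟩ := h.tb.exn h.hY
  refine h.symm.nn hy hm (h.tb.mx h.hX (pgroup_of_le (pgQ X) rq) (ne_bot_mono (h.tb.om_ne h.hY) (l h.hY h.cent))
    (fun m hm => norm_sSup ?_) (mem_normalizer_of_conj_le (conj_le_iff.2 fun r hr => ?_)))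
  · rintro _ ⟨Z, hZ, e, rfl⟩
    rw [conj_om]
    refine l (h.tb.cj hZ m) ?_
    rw [← conj_om, ← conj_eq_of_norm (norm_cent le_rfl (norm_om hm))]
    exact conj_mono m e
  · rw [cj_eq_cm]
    exact mul_mem (l h.hY h.cent (h.cm_om' h.hY hy (c hr))) hr

theorem Qd.two (h : Qd Ω U V W) (hX : X ∈ Ω) : ∃ x ∈ X, ∃ y ∈ X, x ∉ Om X ∧ y ∉ Om X ∧ x * x ≠ y * y := by
  obtain ⟨s, hs, t, ht, s1, t1, ne⟩ := h.tb.four hX
  obtain ⟨x, hx, rfl⟩ := h.sq_surj hX hs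
  obtain ⟨y, hy, rfl⟩ := h.sq_surj hX ht
  exact ⟨x, hx, y, hy, fun e => s1 e.2.2, fun e => t1 e.2.2, ne⟩

theorem Al.c1 (h : Al Ω X Y) (hZ : Z ∈ Ω) (e : Z ≤ 𝐂(X)) : Om Z ≤ 𝐂(Om Y) := by
  by_contra n
  have ab := h.tb.ab_vb h.hX
  have lZ := le_vb hZ e
  obtain ⟨W, k⟩ := Qh.qd ⟨h.tb, hZ, h.hY, n, fun r hr => cent_mono ab
    (conj_le_of_norm lZ (h.tb.norm_vb X (h.norm' hr))) lZ⟩
  have hW := k.l.hX
  obtain ⟨v, hv, v1⟩ := h.tb.ex1 hZ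
  obtain ⟨r, hr, r1⟩ := h.tb.ex1 h.hY
  have cW := h.tb.cent_of_inv h.hX hW (k.cm_mem hr hv).1 (k.cm_ne hr r1 hv v1)
    (TIB.vb_cent X (cm_mem_right (h.tb.norm_vb X (h.norm' hr)) (lZ hv)))
  have lW := le_vb hW cW
  obtain ⟨w, hw, wn, q⟩ := k.ac' v hv v1
  obtain ⟨a, ha, cu⟩ := h.z3 (mul_mem (inv_mem (cW hw)) (e hv.1)) (cent_anti le_sup_right q.cent)
  have cu' := mul_mem ha.2.1 (mul_mem (inv_mem (cW hw)) (e hv.1))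
  have su : Sm (Vb Ω X) (a * (w⁻¹ * v)) w⁻¹ := by
    rw [← mul_assoc, ← cent_symm cW ha.1 _ (inv_mem hw), mul_assoc]
    exact Sm.mul_cent (ab (mul_mem (h.tb.om_vb h.hX ha) (lZ hv))) _
  generalize a * (w⁻¹ * v) = u at cu cu' su
  obtain ⟨x, hx, x', hx', xn, xn', ne⟩ := k.two h.hX
  obtain ⟨y, hy, yn⟩ := h.tb.exn h.hY
  obtain ⟨g, g1, -, e1, gK⟩ := h.trans hx xn hx' xn' hy yn
  have gu := gK 𝐂[u] (le_cent1_iff.2 cu' hx) (le_cent1_iff.2 cu' hx') (le_cent1_iff.2 cu hy)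
    (le_cent1_iff.2 (cent_anti (om_le X) cu')) (le_cent1_iff.2 (cent_anti (om_le Y) cu))
  have gW : g ∈ 𝐍(W) := by
    have m := conj_mem_of_norm (h.tb.norm_vb X g1) (lZ hv)
    refine norm_of_conj_eq (h.tb.cj_eq hW hW (k.l.cm_mem (inv_mem hw) hv).1
      (k.l.cm_ne (inv_mem hw) (mt inv_mem_iff.1 wn) hv.1 v1) ?_)
    rw [← su.cm (lZ hv), cm_conj, cj_of_cm (mem_cent1.1 gu), su.cm m]
    exact (h.cm_om' hW (inv_mem hw) (cent_anti lW (ab m))).1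
  obtain ⟨b, hb, e2⟩ := k.l'.symm.surj hy yn (h.symm.cm_mem hy (h.sqX hx))
  have cd : b * (x * x) ∈ 𝐂(X) := mul_mem (cW hb.1) (h.sqX hx).2.1
  have gd := mem_cent1.1 (gK 𝐂[b * (x * x)] (le_cent1_iff.2 cd hx) (le_cent1_iff.2 cd hx')
    (mem_cent1.2 (k.l'.symm.cm_eq hy hb (h.symm.cent (h.sqX hx)) e2)) (le_cent1_iff.2 (cent_anti (om_le X) cd))
    (le_cent1_iff.2 (mul_mem (k.l'.symm.cent hb) (h.symm.cent (h.sqX hx)))))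
  have e3 : g * (x * x) * g⁻¹ * (x * x)⁻¹ = (g * b * g⁻¹)⁻¹ * b := by
    rw [mul_inv_eq_iff_eq_mul, mul_assoc _ b, ← cj_of_cm gd]
    group
  have e4 := h.tb.eq_one h.hX hW (fun q => k.l.nc (q ▸ e)) (cm_mem_right g1 (mul_mem hx hx))
    (e3 ▸ mul_mem (inv_mem (conj_mem_of_norm gW hb.1)) hb.1)
  exact ne (by rw [← h.sq_congr (conj_mem_of_norm g1 hx) hx' e1, conj_mul, mul_inv_eq_one.1 e4])

namespace Qd

variable (h : Qd Ω X Y Z)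
include h

theorem al_of_cent (hW : W ∈ Ω) (e : W ≤ 𝐂(X)) : Al Ω Y W :=
  (h.tb.tri' h.l.hY hW (h.l.c1 hW e)).resolve_left fun c => h.nc
    ((h.tb.tri' hW h.l'.hY (cent_symm (h.l'.c1 hW e))).elim (h.tb.be_be hW h.l.hY h.l'.hY (cent_symm c))
      fun k => k.c1 h.l.hY (cent_symm c))

theorem exists_at (hW : W ∈ Ω) : ∃ U V, Qd Ω W U V := by
  obtain ⟨g, rfl⟩ := h.tb.tr h.l.hX hW
  exact ⟨_, _, h.conj g⟩

theorem conjX (hg : g ∈ 𝐍(X)) : Qd Ω X (g ⋆ Y) (g ⋆ Z) := by simpa only [conj_eq_of_norm hg] using h.conj g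

theorem nb (hU : U ∈ Ω) (hW : W ∈ Ω) (e : W ≤ 𝐂(U)) : U = W := by
  by_contra ne
  obtain ⟨X, hX, B, B', e, e', k⟩ := h.tb.exists_al hU hW ne e
  obtain ⟨Y, Z, h⟩ := h.exists_at hX
  obtain ⟨y, hy, yn⟩ := h.tb.exn k.hX
  obtain ⟨r, hr, r1⟩ := h.tb.ex1 h.l.hY
  obtain ⟨a, ha, e1⟩ := k.surj hy yn ((h.al_of_cent k.hX e).symm.cm_mem hy hr)
  obtain ⟨x, hx, e2⟩ := h.full (h.al_of_cent k.hY e').symm hr r1 ha
  have := k.cm_eq hy ha ((h.al_of_cent k.hX e).symm.cent hr) e1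
  rw [← e2, ← cj_eq_cm] at this
  exact cj_ne r1 (((h.conjX (cent_le_norm X (e' hx))).al_of_cent k.hX e).symm.inj hy yn (conj_mem_conj.2 hr.1) this)

theorem al (hU : U ∈ Ω) (hW : W ∈ Ω) (ne : U ≠ W) (e : Om W ≤ 𝐂(Om U)) : Al Ω U W :=
  (h.tb.tri' hU hW e).resolve_left fun c => ne (h.nb hU hW c)

theorem eq_of_nel (hU : U ∈ Ω) (hW : W ∈ Ω) (hx : x ∈ U) (xn : x ∉ Om U) (e : x ∈ 𝐍(W)) : W = U :=
  h.nb hW hU (h.tb.cent_of_nel hW hU hx (fun q => xn (h.tb.mem_om hU hx q)) e)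

theorem lemC (k : Al Ω U V) (hW : W ∈ Ω) (e : Om W ≤ 𝐂(Om U)) (e' : Om W ≤ 𝐂(Om V)) : Om W ≤ Om U ⊔ Om V := by
  obtain rfl | ne := eq_or_ne V W
  · exact le_sup_right
  intro z hz
  obtain rfl | z1 := eq_or_ne z 1
  · exact one_mem _
  obtain ⟨x, hx, xn⟩ := h.tb.exn k.hX
  obtain ⟨r, hr, e1⟩ := k.surj hx xn (k.cm_om' k.hX hx (e hz))
  obtain ⟨y, hy, e2⟩ := h.full (h.al k.hY hW ne e') hz z1 hr
  have := k.cm_eq hx hr (e hz) e1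
  rw [← e2, ← cj_eq_cm] at this
  have q := om_cj y hz
  rw [h.eq_of_nel k.hX (h.tb.cj hW y) hx xn (h.tb.norm_of_cm (h.tb.cj hW y) q.1 (cj_ne z1) this), cj_eq_cm, e2] at q
  exact (mul_mem_cancel_left (mem_sup_right hr)).1 (mem_sup_left q)

end Qd

end Cfsg.Lib.TIB
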