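import Cfsg.Agent.Lib.TIB.Exist

/-! The members are products of two cyclic groups of order four. -/

set_option autoImplicit false

namespace Cfsg.Lib.TIB

open Subgroup Cfsg.Lib.BG Cfsg.Lib.Transfer Cfsg.Lib.GW Cfsg.Lib.TIW
open Cfsg.Lib.Inv hiding conj_mem_of_mem_normalizer
open scoped Cfsg.Lib.Transfer

variable {G : Type*} [Group G] [Finite G] {Ω : Set (Subgroup G)} {U V W X Y Z : Subgroup G}
  {a b c d g k q r s t u v w x y z : G}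

theorem Al.uniq (h : Al Ω X Y) (ha : a ∈ Om X) (hb : b ∈ Om X) (hr : r ∈ Om Y) (hs : s ∈ Om Y) (e : a * r = b * s) :
    a = b ∧ r = s := by
  have e1 : b⁻¹ * a = s * r⁻¹ := by rw [inv_mul_eq_iff_eq_mul, ← mul_assoc, ← e, mul_inv_cancel_right]
  have := h.eq_one (mul_mem (inv_mem hb) ha).1 (e1 ▸ (mul_mem hs (inv_mem hr)).1)
  exact ⟨(inv_mul_eq_one.1 this).symm, (mul_inv_eq_one.1 (e1 ▸ this)).symm⟩

theorem Al.rho (h : Al Ω X Y) (k : Al Ω X Z) (hx : x ∈ X) (hr : r ∈ Om Y) (e : Sm (Om X ⊔ Om Z) r x) :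
    x ⋄ r = x * x := by
  have q : x⁻¹ * r * (x⁻¹ * r) = (x * x)⁻¹ * x ⋄ r := by
    rw [show x⁻¹ * r * (x⁻¹ * r) = (x * x)⁻¹ * x ⋄ r * (r * r) by group, hr.2.2, mul_one]
  have := k.z2 e.cent (q ▸ mul_mem (inv_mem (h.sqX hx)) (h.cm_mem hx hr))
  rw [q, inv_mul_eq_one] at this
  exact this.symm

namespace Qd

variable (h : Qd Ω X Y Z)
include h

theorem wy (k : Al Ω U V) (hy : y ∈ U) (yn : y ∉ Om U) :
    ∃ w, w ⋆ U = V ∧ w ⋆ V = U ∧ ∀ r ∈ Om V, w * r * w⁻¹ = y ⋄ r ∧ w * y ⋄ r * w⁻¹ = r := by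
  obtain ⟨s, hs, s1⟩ := h.tb.ex1 k.hY
  have a1 := k.cm_ne hy yn hs.1 s1
  obtain ⟨z, hz, e⟩ := h.full k.symm (k.cm_mem hy hs) a1 hs
  have e1 : z ⋆ U = y ⋆ V := h.tb.cj_eq k.hX (h.tb.cj k.hY y) (k.cm_mem hy hs).1 a1 (by
    rw [cj_eq_cm, e, ← k.cm (k.cm_mem hy hs) hs, ← cj_eq_cm]; exact conj_mem_conj.2 hs.1)
  have e2 : ∀ r ∈ Om V, z * y ⋄ r * z⁻¹ = y ⋄ r * r := fun r hr => by
    have := om_cj y hr
    rw [← e1, ← conj_om] at this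
    obtain ⟨a, ha, q⟩ := this
    replace q : z * a * z⁻¹ = y * r * y⁻¹ := q
    have q' := q
    rw [cj_eq_cm z, cj_eq_cm y, ← k.cm ha (k.symm.cm_mem hz ha)] at q'
    rw [← (k.uniq ha (k.cm_mem hy hr) (k.symm.cm_mem hz ha) hr q').1, q, cj_eq_cm y,
      (k.uniq ha (k.cm_mem hy hr) (k.symm.cm_mem hz ha) hr q').1]
  have e3 : ∀ r ∈ Om V, y * z * y * r * (y * z * y)⁻¹ = y ⋄ r ∧ y * z * y * y ⋄ r * (y * z * y)⁻¹ = r :=
    fun r hr => by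
      have c := cj_of_cm (om_cm (k.cm_mem hy hr) hy).symm
      constructor
      · rw [show y * z * y * r * (y * z * y)⁻¹ = y * (z * y ⋄ r * z⁻¹ * (z * r * z⁻¹)) * y⁻¹ by group, e2 r hr,
          cj_of_cm (om_cm hr hz).symm, mul_assoc _ r, hr.2.2, mul_one, c]
      · rw [show y * z * y * y ⋄ r * (y * z * y)⁻¹ = y * (z * (y * y ⋄ r * y⁻¹) * z⁻¹) * y⁻¹ by group, c, e2 r hr,
          ← conj_mul, c]
        nth_rw 2 [cj_eq_cm y r]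
        exact sq_l (k.cm_mem hy hr).2.2 r
  exact ⟨_, h.tb.cj_eq k.hX k.hY (k.cm_mem hy hs).1 a1 ((e3 s hs).2.symm ▸ hs.1),
    h.tb.cj_eq k.hY k.hX hs.1 s1 ((e3 s hs).1.symm ▸ (k.cm_mem hy hs).1), e3⟩

theorem tau : ∃ τ : G → G, (∀ a ∈ Om X, τ a ∈ Om Y) ∧ (∀ a ∈ Om X, ∀ b ∈ Om X, τ (a * b) = τ a * τ b) ∧
    (∀ a ∈ Om X, τ a = 1 → a = 1) ∧
      ∀ a ∈ Om X, ∀ k ∈ 𝐍(X), k ∈ 𝐍(Y) → τ (k * a * k⁻¹) = k * τ a * k⁻¹ := by
  have ex : ∀ a, ∃ r, a ∈ Om X → r ∈ Om Y ∧ ∃ x ∈ X, x * x = a ∧ Sm (Om X ⊔ Om Z) r x := fun a => by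
    by_cases ha : a ∈ Om X
    · obtain ⟨x, hx, e⟩ := h.sq_surj h.l.hX ha
      obtain ⟨r, hr, q⟩ := h.symm.onto hx
      exact ⟨r, fun _ => ⟨hr, x, hx, e, q⟩⟩
    · exact ⟨1, fun e => (ha e).elim⟩
  choose τ t using ex
  have u : ∀ {r s x y}, r ∈ Om Y → s ∈ Om Y → x ∈ X → y ∈ X → x * x = y * y → Sm (Om X ⊔ Om Z) r x →
      Sm (Om X ⊔ Om Z) s y → r = s := fun {r s x y} hr hs hx hy e e1 e2 => by
    rw [← om_inv hs, ← mul_eq_one_iff_eq_inv]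
    by_contra n
    obtain ⟨a, ha, a1⟩ := h.tb.ex1 h.l'.hY
    exact h.symm.cm_ne (mul_mem hr hs) n ha a1 (one_of_cm (mem_cent.1 ((e1.mul e2 (h.l'.normV hy)).mem_cent
      (h.l'.centV (mem_sup_left (h.l.om_of_sq hx hy e)))) a (mem_sup_right ha)).symm)
  have m : ∀ a ∈ Om X, ∀ b ∈ Om X, τ (a * b) = τ a * τ b := fun a ha b hb => by
    obtain ⟨h1, x, hx, e1, q1⟩ := t a ha
    obtain ⟨h2, y, hy, e2, q2⟩ := t b hb
    obtain ⟨h3, z, hz, e3, q3⟩ := t _ (mul_mem ha hb)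
    refine u h3 (mul_mem h1 h2) hz (mul_mem hx hy) ?_ q3 (q1.mul q2 (h.l'.normV hy))
    rw [e3, ← e1, ← e2, mul_assoc, mul_assoc, ← mul_assoc y x, h.l.cmX hy hx, mul_assoc]
  refine ⟨τ, fun a ha => (t a ha).1, m, fun a ha e => ?_, fun a ha k k1 k2 => ?_⟩
  · obtain ⟨h1, x, hx, e1, q1⟩ := t a ha
    rw [← e1, ← h.l.rho h.l' hx h1 q1, e]
    simp
  obtain rfl | a1 := eq_or_ne a 1
  · have := m 1 ha 1 ha
    rw [mul_one, left_eq_mul] at this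
    simp [this]
  obtain ⟨h1, x, hx, e1, q1⟩ := t a ha
  obtain ⟨h2, y, hy, e2, q2⟩ := t _ (om_cj' k1 ha)
  have hx' := conj_mem_of_norm k1 hx
  refine h.l.cm_inj hy (fun e => cj_ne a1 (e2 ▸ e.2.2)) h2 (om_cj' k2 h1) ?_
  rw [h.l.rho h.l' hy h2 q2, e2, (h.l.sm_of_om hy hx' (h.l.om_of_sq hy hx' (by rw [conj_mul, e1, e2]))).cm
    (mem_sup_right (om_cj' k2 h1)), ← cm_conj k x, h.l.rho h.l' hx h1 q1, e1]

theorem cases (hx : x ∈ X) (hy : y ∈ X) (xn : x ∉ Om X) (yn : y ∉ Om X) (n : x * y ∉ Om X) (hz : z ∈ X) :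
    z ∈ Om X ∨ x * z ∈ Om X ∨ y * z ∈ Om X ∨ x * (y * z) ∈ Om X := by
  by_contra! q
  obtain ⟨τ, t1, t2, t3, t4⟩ := h.tau
  obtain ⟨r, hr, r1⟩ := h.tb.ex1 h.l.hY
  have ka : ∀ {y}, y ∈ X → y ∉ Om X → y ⋄ τ (y ⋄ r) = x ⋄ τ (x ⋄ r) := fun {y} hy yn => by
    obtain ⟨w, e1, e2, e3⟩ := h.wy h.l hx xn
    obtain ⟨v, f1, f2, f3⟩ := h.wy h.l hy yn
    have m := h.l.cm_mem hx hr
    obtain ⟨s, hs, e⟩ := h.l.surj hy yn (h.l.cm_mem hx (t1 _ m))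
    have := t4 _ m (v * w) (norm_of_conj_eq (by rw [← conj_conj, e1, f2])) (norm_of_conj_eq (by rw [← conj_conj, e2, f1]))
    rw [show ∀ c, v * w * c * (v * w)⁻¹ = v * (w * c * w⁻¹) * v⁻¹ from fun c => by group,
      show ∀ c, v * w * c * (v * w)⁻¹ = v * (w * c * w⁻¹) * v⁻¹ from fun c => by group, (e3 r hr).2, (f3 r hr).1,
      (e3 _ (t1 _ m)).1, ← e, (f3 s hs).2] at this
    rw [this, e]
  have mem : ∀ {x y}, x ∈ X → y ∈ X → x ⋄ τ (y ⋄ r) ∈ Om X := fun hx hy =>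
    h.l.cm_mem hx (t1 _ (h.l.cm_mem hy hr))
  have ml : ∀ {x y z}, x ∈ X → y ∈ X → z ∈ X → (x * y) ⋄ τ (z ⋄ r) = x ⋄ τ (z ⋄ r) * y ⋄ τ (z ⋄ r) :=
    fun hx hy hz => h.l.add' hx hy (t1 _ (h.l.cm_mem hz hr))
  have mr : ∀ {x y z}, x ∈ X → y ∈ X → z ∈ X → x ⋄ τ ((y * z) ⋄ r) = x ⋄ τ (y ⋄ r) * x ⋄ τ (z ⋄ r) :=
    fun hx hy hz => by
      rw [h.l.add' hy hz hr, t2 _ (h.l.cm_mem hy hr) _ (h.l.cm_mem hz hr),
        h.l.add hx (t1 _ (h.l.cm_mem hy hr)) (t1 _ (h.l.cm_mem hz hr))]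
  have bb : ∀ {y}, y ∈ X → y ∉ Om X → x * y ∉ Om X → x ⋄ τ (y ⋄ r) * y ⋄ τ (x ⋄ r) = x ⋄ τ (x ⋄ r) :=
    fun {y} hy yn n => by
      have := ka (mul_mem hx hy) n
      rw [ml hx hy (mul_mem hx hy), mr hx hx hy, mr hy hx hy, ka hy yn, mul_assoc (x ⋄ τ (x ⋄ r)), mul_eq_left,
        ← mul_assoc (x ⋄ τ (y ⋄ r)), mul_eq_one_iff_eq_inv, om_inv (mem hx hx)] at this
      exact this
  have e1 := bb (mul_mem hy hz) q.2.2.1 q.2.2.2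
  rw [ml hy hz hx, mr hx hy hz, mul_assoc (x ⋄ τ (y ⋄ r)), ← mul_assoc (x ⋄ τ (z ⋄ r)),
    om_cm (mem hx hz) (mem hy hx).1, mul_assoc (y ⋄ τ (x ⋄ r)), bb hz q.1 q.2.1, ← mul_assoc (x ⋄ τ (y ⋄ r)),
    bb hy yn n, (mem hx hx).2.2] at e1
  exact h.l.cm_ne hx xn (t1 _ (h.l.cm_mem hx hr)).1 (mt (t3 _ (h.l.cm_mem hx hr)) (h.l.cm_ne hx xn hr.1 r1)) e1.symm

theorem four : ∃ x ∈ X, ∃ y ∈ X, ∃ f : Small.FourGen (x * x) (y * y), Om X = f.four := by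
  obtain ⟨x, hx, y, hy, xn, yn, ne⟩ := h.two h.l.hX
  have f : Small.FourGen (x * x) (y * y) := ⟨fun e => xn (h.tb.mem_om h.l.hX hx e), fun e => yn (h.tb.mem_om h.l.hX hy e),
    ne, (h.l.sqX hx).2.2, (h.l.sqX hy).2.2, h.l.cmX (mul_mem hx hx) (mul_mem hy hy)⟩
  refine ⟨x, hx, y, hy, f, le_antisymm (fun a ha => ?_) (f.four_le_iff.2 ⟨h.l.sqX hx, h.l.sqX hy⟩)⟩
  obtain ⟨z, hz, rfl⟩ := h.sq_surj h.l.hX ha
  rw [f.mem_four]
  refine (h.cases hx hy xn yn (fun e => ne (h.l.sq_congr hx hy e)) hz).imp om_sq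
    (.imp (fun e => (h.l.sq_congr hx hz e).symm) (.imp (fun e => (h.l.sq_congr hy hz e).symm) fun e => ?_))
  rw [← h.l.sq_congr (mul_mem hx hy) hz (by rwa [mul_assoc]), mul_assoc, mul_assoc, ← mul_assoc y x, h.l.cmX hy hx,
    mul_assoc]

theorem card_om (hW : W ∈ Ω) : Nat.card (Om W) = 4 := by
  obtain ⟨x, -, y, -, f, e⟩ := h.four
  rw [h.tb.card_om hW h.l.hX, e, f.card_four]

theorem iso : Nonempty (X ≃* Multiplicative (ZMod 4) × Multiplicative (ZMod 4)) := by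
  obtain ⟨x, hx, y, hy, f, e⟩ := h.four
  have o : ∀ {x : G}, x * x ≠ 1 → x * x * (x * x) = 1 → orderOf x = 4 := fun {x} h1 h2 =>
    orderOf_eq_prime_pow (p := 2) (n := 1) (by rwa [pow_one, pow_two])
      (by rw [← h2]; simp only [pow_succ, pow_zero, one_mul, pow_mul, mul_assoc])
  have sq : ∀ {x a : G}, x * x ≠ 1 → x * x * (x * x) = 1 → a ∈ zpowers x → orderOf a = 2 → a = x * x :=
    fun {x a} h1 h2 ha a2 => by
      classical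
      rw [mem_zpowers_iff_mem_range_orderOf, o h1 h2, Finset.mem_image] at ha
      obtain ⟨k, hk, rfl⟩ := ha
      rw [orderOf_pow, o h1 h2] at a2
      rw [Finset.mem_range] at hk
      interval_cases k <;> first | exact pow_two x | exact absurd a2 (by decide)
  have c : zpowers x ≤ 𝐂(zpowers y) := cent_mono (h.tb.ab h.l.hX) (zpowers_le.2 hx) (zpowers_le.2 hy)
  have d : zpowers x ⊓ zpowers y = ⊥ := by_contra fun n => by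
    obtain ⟨a, ha, a2⟩ := exists_involution_mem_of_even (even_iff_two_dvd.2 (pgroup_dvd_card
      (pgroup_of_le (pgz (h.tb.pg h.l.hX) hx) inf_le_left) n))
    exact f.ne ((sq f.1 f.4 ha.1 a2).symm.trans (sq f.2 f.5 ha.2 a2))
  have e1 : zpowers x ⊔ zpowers y = X := eq_of_le_of_card_le (sup_le (zpowers_le.2 hx) (zpowers_le.2 hy)) (by
    rw [← DP.card ⟨c, d, rfl⟩, Nat.card_zpowers, Nat.card_zpowers, o f.1 f.4, o f.2 f.5, h.card h.l.hX,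
      h.card_om h.l.hX])
  have cm : ∀ (m : zpowers x) (n : zpowers y), Commute ((zpowers x).subtype m) ((zpowers y).subtype n) :=
    fun m n => le_cent_iff.1 c m m.2 n n.2
  have k : ∀ {x : G}, orderOf x = 4 → Nonempty (zpowers x ≃* Multiplicative (ZMod 4)) := fun e =>
    ⟨mulEquivOfCyclicCardEq (by rw [Nat.card_zpowers, e]; simp)⟩
  obtain ⟨e2⟩ := k (o f.1 f.4)
  obtain ⟨e3⟩ := k (o f.2 f.5)
  exact ⟨((MulEquiv.subgroupCongr (by rw [MonoidHom.noncommCoprod_range, range_subtype, range_subtype, e1])).trans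
    (MonoidHom.ofInjective ((MonoidHom.noncommCoprod_injective _ _ cm).2 ⟨subtype_injective _, subtype_injective _,
      by rw [range_subtype, range_subtype, disjoint_iff, d]⟩)).symm).trans (e2.prodCongr e3)⟩

end Qd

end Cfsg.Lib.TIB
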