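import Cfsg.Agent.Lib.TIB.Basic

/-! Non-commuting neighbours and their lines. -/

set_option autoImplicit false

namespace Cfsg.Lib.TIB

open Subgroup Cfsg.Lib.BG Cfsg.Lib.Transfer Cfsg.Lib.GW Cfsg.Lib.TIW
open Cfsg.Lib.Inv hiding conj_mem_of_mem_normalizer
open scoped Cfsg.Lib.Transfer

variable {G : Type*} [Group G] {Ω : Set (Subgroup G)} {K P U V X Y Z : Subgroup G}
  {a b c d g k r s t u v w x x' y z : G}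

/-- `g` and `x` act in the same way on `V`. -/
def Sm (V : Subgroup G) (g x : G) : Prop := ∀ v ∈ V, g * v * g⁻¹ = x * v * x⁻¹

namespace Sm

theorem refl (V : Subgroup G) (g : G) : Sm V g g := fun _ _ => rfl

theorem symm (h : Sm V g x) : Sm V x g := fun v hv => (h v hv).symm

theorem trans (h : Sm V g x) (e : Sm V x y) : Sm V g y := fun v hv => (h v hv).trans (e v hv)

theorem mono (h : Sm V g x) (e : U ≤ V) : Sm U g x := fun v hv => h v (e hv)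

theorem cm (h : Sm V g x) (hv : v ∈ V) : g ⋄ v = x ⋄ v := by rw [h v hv]

theorem mul (h : Sm V g x) (e : Sm V k y) (hy : y ∈ 𝐍(V)) : Sm V (g * k) (x * y) := fun v hv => by
  rw [show g * k * v * (g * k)⁻¹ = g * (k * v * k⁻¹) * g⁻¹ by group, e v hv, h _ (conj_mem_of_norm hy hv)]
  group

theorem cent (h : Sm V g x) : x⁻¹ * g ∈ 𝐂(V) := mem_cent.2 fun v hv => (cm_of_cj (by
  rw [show x⁻¹ * g * v * (x⁻¹ * g)⁻¹ = x⁻¹ * (g * v * g⁻¹) * x by group, h v hv]; group)).symm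

theorem of_cent (h : x⁻¹ * g ∈ 𝐂(V)) : Sm V g x := fun v hv => by
  rw [← cj_of_cm (mem_cent.1 h v hv).symm]
  nth_rw 1 [cj_of_cm (mem_cent.1 h v hv).symm]
  group

theorem cent' (h : Sm V g x) (hx : x ∈ 𝐍(V)) : g * x⁻¹ ∈ 𝐂(V) := by
  simpa [mul_assoc] using cj_cent hx h.cent

theorem of_cent' (h : g * x⁻¹ ∈ 𝐂(V)) (hx : x ∈ 𝐍(V)) : Sm V g x :=
  of_cent (by simpa [mul_assoc] using cj_cent (inv_mem hx) h)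

theorem one (h : g ∈ 𝐂(V)) : Sm V g 1 := of_cent (by simpa)

theorem mem_cent (h : Sm V g x) (hx : x ∈ 𝐂(V)) : g ∈ 𝐂(V) := by simpa using mul_mem hx h.cent

theorem norm (h : Sm V g x) (hx : x ∈ 𝐍(V)) : g ∈ 𝐍(V) := by simpa using mul_mem hx (cent_le_norm V h.cent)

theorem mul_cent (hx : c ∈ 𝐂(V)) (g : G) : Sm V (g * c) g := of_cent (by simpa)

theorem sup (h : Sm U g x) (e : Sm V g x) : Sm (U ⊔ V) g x := of_cent (by rw [cent_sup]; exact ⟨h.cent, e.cent⟩)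

theorem conj (h : Sm V g x) (k : G) : Sm (k ⋆ V) (k * g * k⁻¹) (k * x * k⁻¹) := by
  rintro _ ⟨v, hv, rfl⟩
  have := h v hv
  simp only [MulEquiv.toMonoidHom_eq_coe, MonoidHom.coe_coe, MulAut.conj_apply]
  rw [show k * g * k⁻¹ * (k * v * k⁻¹) * (k * g * k⁻¹)⁻¹ = k * (g * v * g⁻¹) * k⁻¹ by group, this]
  group

end Sm

theorem om_cm_mem (hx : x ∈ X) (cX : X ≤ 𝐂(X)) (x2 : x * x ∈ Om X) (hg : g ∈ 𝐍(X)) (hc : g ∈ 𝐂(Om X)) :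
    g ⋄ x ∈ Om X := by
  refine ⟨cm_mem_right hg hx, cX (cm_mem_right hg hx), ?_⟩
  rw [mul_assoc (g * x * g⁻¹), ← mul_assoc x⁻¹, le_cent_iff.1 cX _ (inv_mem hx) _ (conj_mem_of_norm hg hx),
    mul_assoc (g * x * g⁻¹), ← mul_assoc (g * x * g⁻¹), conj_mul, cj_of_cm (mem_cent.1 hc _ x2).symm]
  group

namespace Al

variable [Finite G] (h : Al Ω X Y)
include h

theorem norm (ha : a ∈ Om X) : a ∈ 𝐍(Y) := (h.J_eq.ge ha).2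

theorem norm' (ha : a ∈ Om Y) : a ∈ 𝐍(X) := h.symm.norm ha

theorem om_of (hx : x ∈ X) (hn : x ∈ 𝐍(Y)) : x ∈ Om X := h.J_eq.le ⟨hx, hn⟩

theorem nn (hx : x ∈ X) (hn : x ∉ Om X) : x ∉ 𝐍(Y) := fun e => hn (h.om_of hx e)

theorem cm (ha : a ∈ Om X) (hr : r ∈ Om Y) : a * r = r * a := h.cmJ (h.J_eq.ge ha) (h.symm.J_eq.ge hr)

theorem cent : Om Y ≤ 𝐂(Om X) := le_cent_iff.2 fun _ hr _ ha => (h.cm ha hr).symm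

theorem sqX (hx : x ∈ X) : x * x ∈ Om X := h.J_eq.le (h.sqJ hx)

theorem sq (hZ : Z ∈ Ω) (hx : x ∈ Z) : x * x ∈ Om Z := by
  obtain ⟨g, rfl⟩ := h.tb.tr h.hX hZ
  exact (h.conj g).sqX hx

theorem exal (hZ : Z ∈ Ω) : ∃ W, Al Ω Z W := by
  obtain ⟨g, rfl⟩ := h.tb.tr h.hX hZ
  exact ⟨_, h.conj g⟩

theorem cm_om (hZ : Z ∈ Ω) (hx : x ∈ Z) (hg : g ∈ 𝐍(Z)) (hc : g ∈ 𝐂(Om Z)) : g ⋄ x ∈ Om Z :=
  om_cm_mem hx (h.tb.ab hZ) (h.sq hZ hx) hg hc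

theorem cm_om' (hZ : Z ∈ Ω) (hx : x ∈ Z) (hc : g ∈ 𝐂(Om Z)) : x ⋄ g ∈ Om Z := by
  rw [cm_swap]; exact inv_mem (h.cm_om hZ hx (h.tb.cent_om_le hZ hc) hc)

theorem inj (hx : x ∈ X) (hn : x ∉ Om X) (hr : r ∈ Y) (e : x * r = r * x) : r = 1 := h.inj0 (h.nn hx hn) hr e

theorem om_of_cm (hx : x ∈ X) (hr : r ∈ Y) (r1 : r ≠ 1) (e : x * r = r * x) : x ∈ Om X :=
  by_contra fun n => r1 (h.inj hx n hr e)

theorem cm_mem (hx : x ∈ X) (hr : r ∈ Om Y) : x ⋄ r ∈ Om X := h.J_eq.le (h.cmJ_mem hx (h.symm.J_eq.ge hr))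

theorem cm_ne (hx : x ∈ X) (hn : x ∉ Om X) (hr : r ∈ Y) (r1 : r ≠ 1) : x ⋄ r ≠ 1 :=
  fun e => r1 (h.inj hx hn hr (cm_of_one e))

theorem add (hx : x ∈ X) (hr : r ∈ Om Y) (hs : s ∈ Om Y) : x ⋄ (r * s) = x ⋄ r * x ⋄ s :=
  h.addJ hx (h.symm.J_eq.ge hr) (h.symm.J_eq.ge hs)

theorem add' (hx : x ∈ X) (hy : y ∈ X) (hr : r ∈ Om Y) : (x * y) ⋄ r = x ⋄ r * y ⋄ r := by
  rw [cm_left, cj_of_cm (om_cm (h.cm_mem hy hr) hx).symm, om_cm (h.cm_mem hy hr) (h.cm_mem hx hr).1]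

theorem cm_a (hx : x ∈ X) (ha : a ∈ Om X) (hr : r ∈ Om Y) : (x * a) ⋄ r = x ⋄ r := by
  rw [h.add' hx ha.1 hr, one_of_cm (h.cm ha hr), mul_one]

theorem cm_inj (hx : x ∈ X) (hn : x ∉ Om X) (hr : r ∈ Om Y) (hs : s ∈ Om Y) (e : x ⋄ r = x ⋄ s) : r = s := by
  rw [← om_inv hs, ← mul_eq_one_iff_eq_inv]
  exact h.inj hx hn (mul_mem hr hs).1 (cm_of_one (by rw [h.add hx hr hs, e, (h.cm_mem hx hs).2.2]))

theorem cm_inj' (hx : x ∈ X) (hy : y ∈ X) (hr : r ∈ Om Y) (r1 : r ≠ 1) (e : x ⋄ r = y ⋄ r) : x * y ∈ Om X :=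
  h.om_of_cm (mul_mem hx hy) hr.1 r1 (cm_of_one (by rw [h.add' hx hy hr, e, (h.cm_mem hy hr).2.2]))

theorem cm_eq (hx : x ∈ X) (hr : r ∈ Om Y) (hs : s ∈ 𝐂(Om X)) (e : x ⋄ r = x ⋄ s) : x * (r * s) = r * s * x :=
  cm_of_one (by
    rw [cm_right, ← e, cj_of_cm (h.cm (h.cm_mem hx hr) hr).symm, (h.cm_mem hx hr).2.2])

theorem surj (hx : x ∈ X) (hn : x ∉ Om X) (ha : a ∈ Om X) : ∃ r ∈ Om Y, x ⋄ r = a :=
  h.symm.J_eq ▸ h.surjJ hx (h.nn hx hn) (h.J_eq.ge ha)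

theorem memV : v ∈ Om X ⊔ Om Y ↔ ∃ a ∈ Om X, ∃ r ∈ Om Y, a * r = v :=
  mem_sup_left_norm (h.cent.trans (cent_le_norm _))

theorem sqV : ∀ v ∈ Om X ⊔ Om Y, v * v = 1 := sq_sup (fun _ => om_sq) (fun _ => om_sq) h.cent

theorem cmV (hv : v ∈ Om X ⊔ Om Y) (hw : w ∈ Om X ⊔ Om Y) : v * w = w * v := cm_of_sq h.sqV hv hw

theorem centV : Om X ⊔ Om Y ≤ 𝐂(Om X ⊔ Om Y) := le_cent_iff.2 fun _ hv _ hw => h.cmV hv hw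

theorem V_cent : Om X ⊔ Om Y ≤ 𝐂(Om X) := h.centV.trans (cent_anti le_sup_left)

theorem V_cent' : Om X ⊔ Om Y ≤ 𝐂(Om Y) := h.centV.trans (cent_anti le_sup_right)

theorem normV : X ≤ 𝐍(Om X ⊔ Om Y) := by rw [← h.J_eq, ← h.symm.J_eq]; exact h.normW

theorem normV' : Y ≤ 𝐍(Om X ⊔ Om Y) := by rw [sup_comm]; exact h.symm.normV

theorem V_cm (hx : x ∈ X) (hn : x ∉ Om X) (hv : v ∈ Om X ⊔ Om Y) (e : x * v = v * x) : v ∈ Om X := by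
  obtain ⟨j, hj, u, hu, rfl⟩ := h.memV.1 hv
  rwa [h.inj hx hn hu.1 (cm_cancel e.symm (om_cm hj hx)).symm, mul_one]

theorem V_cm' (hx : y ∈ Y) (hn : y ∉ Om Y) (hv : v ∈ Om X ⊔ Om Y) (e : y * v = v * y) : v ∈ Om Y :=
  h.symm.V_cm hx hn (by rwa [sup_comm]) e

theorem cmV_mem (hx : x ∈ X) (hv : v ∈ Om X ⊔ Om Y) : x ⋄ v ∈ Om X := h.cm_om' h.hX hx (h.V_cent hv)

theorem om_of_cent (hx : x ∈ X) (e : x ∈ 𝐂(Om Y)) : x ∈ Om X := h.om_of hx (h.tb.cent_om_le h.hY e)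

theorem om_of_sm (hx : x ∈ X) (hy : y ∈ X) (e : Sm (Om Y) x y) : x * y ∈ Om X :=
  let ⟨_, hr, r1⟩ := h.tb.ex1 h.hY
  h.cm_inj' hx hy hr r1 (e.cm hr)

theorem sm_of_om (hx : x ∈ X) (hy : y ∈ X) (e : x * y ∈ Om X) : Sm (Om X ⊔ Om Y) x y :=
  Sm.of_cent (by
    rw [show y⁻¹ * x = (y * y)⁻¹ * (y * x) by group, h.cmX hy hx]
    exact h.centV (mem_sup_left (mul_mem (inv_mem (h.sqX hy)) e)))

theorem inv_sq (hx : x ∈ X) (hr : r ∈ Om Y) : x * r * (x * r) = 1 ↔ x ⋄ r = x * x := by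
  rw [show x * r * (x * r) = x * (x⁻¹ * x ⋄ r)⁻¹ * (r * r) by group, hr.2.2, mul_one, mul_inv_rev, inv_inv,
    ← mul_assoc, om_inv (h.cm_mem hx hr), ← om_cm (h.cm_mem hx hr) hx, mul_assoc, mul_eq_one_iff_eq_inv,
    om_inv (h.sqX hx)]

theorem swap (hx : x ∈ X) (hn : x ∉ Om X) (hy : y ∈ Y) (hm : y ∉ Om Y) :
    ∃ w, w * w = 1 ∧ w ⋆ Y = X ∧ w ⋆ X = Y ∧ w * y * w⁻¹ * x ∈ Om X ∧
      ∀ K : Subgroup G, x ∈ K → y ∈ K → Om X ≤ K → Om Y ≤ K → w ∈ K := by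
  obtain ⟨w, w2, e1, e2, e3⟩ := h.swapJ hx (h.nn hx hn) hy (h.symm.nn hy hm)
  rw [h.J_eq] at e2 e3
  rw [h.symm.J_eq] at e3
  exact ⟨w, w2, e1, conj_swap w2 e1, by simpa [mul_assoc] using mul_mem e2 (h.sqX hx), e3⟩

theorem trans (hx : x ∈ X) (hn : x ∉ Om X) (hx' : x' ∈ X) (hn' : x' ∉ Om X) (hy : y ∈ Y) (hm : y ∉ Om Y) :
    ∃ k ∈ 𝐍(X), k ∈ 𝐍(Y) ∧ k * x * k⁻¹ * x' ∈ Om X ∧
      ∀ K : Subgroup G, x ∈ K → x' ∈ K → y ∈ K → Om X ≤ K → Om Y ≤ K → k ∈ K := by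
  obtain ⟨w, w2, e1, e2, e3, e4⟩ := h.swap hx hn hy hm
  obtain ⟨v, v2, f1, f2, f3, f4⟩ := h.swap hx' hn' hy hm
  have nk : v * w ∈ 𝐍(X) := norm_of_conj_eq (by rw [← conj_conj, e2, f1])
  refine ⟨v * w, nk, norm_of_conj_eq (by rw [← conj_conj, e1, f2]), ?_, fun K k1 k2 k3 k4 k5 =>
    mul_mem (f4 K k2 k3 k4 k5) (e4 K k1 k3 k4 k5)⟩
  have e5 := mul_mem (inv_mem (h.sqX (mem_cj f1 hy))) (om_cj' nk e3)
  rw [show v * w * (w * y * w⁻¹ * x) * (v * w)⁻¹ = v * (w * (w * y * w⁻¹) * w⁻¹) * v⁻¹ * (v * w * x * (v * w)⁻¹)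
    by group, cj_cj w2, mul_inv_rev, mul_assoc _ (v * y * v⁻¹)⁻¹, inv_mul_cancel_left,
    h.cmX (inv_mem (mem_cj f1 hy)) (conj_mem_of_norm nk hx)] at e5
  simpa only [mul_assoc _ (v * y * v⁻¹)⁻¹, inv_mul_cancel_left] using mul_mem e5 f3

theorem sq_congr (hx : x ∈ X) (hy : y ∈ X) (e : x * y ∈ Om X) : x * x = y * y := by
  have := e.2.2
  rw [mul_assoc, ← mul_assoc y, h.cmX hy hx, mul_assoc x y, ← mul_assoc, mul_eq_one_iff_eq_inv,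
    om_inv (h.sqX hy)] at this
  exact this

theorem om_of_sq (hx : x ∈ X) (hy : y ∈ X) (e : x * x = y * y) : x * y ∈ Om X :=
  h.tb.mem_om h.hX (mul_mem hx hy) (by
    rw [mul_assoc, ← mul_assoc y, h.cmX hy hx, mul_assoc x y, ← mul_assoc, e, (h.sqX hy).2.2])

theorem g2 (hg : g ∈ 𝐍(Y)) (hc : g ∈ 𝐂(Om X)) : g ∈ 𝐂(Om Y) := mem_cent.2 fun r hr => by
  obtain ⟨x, hx, hn⟩ := h.tb.exn h.hX
  have n := h.tb.cent_om_le h.hX hc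
  refine (cm_of_cj (h.cm_inj hx hn (om_cj' hg hr) hr ?_)).symm
  rw [← cj_of_cm (mem_cent.1 hc _ (h.cm_mem hx hr)).symm, cm_conj g x, cj_eq_cm g x,
    om_cm (h.cm_om h.hX hx n hc) hx, h.cm_a hx (h.cm_om h.hX hx n hc) (om_cj' hg hr)]

theorem exfix (hy : y ∈ Y) (hm : y ∉ Om Y) (hc : z ∈ 𝐂(Om Y)) : ∃ a ∈ Om X, y * (a * z) = a * z * y :=
  let ⟨a, ha, e⟩ := h.symm.surj hy hm (h.cm_om' h.hY hy hc)
  ⟨a, ha, h.symm.cm_eq hy ha hc e⟩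

theorem z2 (hz : z ∈ 𝐂(Om X ⊔ Om Y)) (z2 : z * z ∈ Om X) : z * z = 1 := by
  obtain ⟨y, hy, hm⟩ := h.tb.exn h.hY
  obtain ⟨a, ha, e⟩ := h.exfix hy hm (cent_anti le_sup_right hz)
  have := cm_mul' e e
  rw [mul_assoc a, ← mul_assoc z, ← mem_cent.1 hz a (mem_sup_left ha), mul_assoc a, sq_l ha.2.2] at this
  exact h.symm.inj hy hm z2.1 this

theorem cent_of_cm (hc : c ∈ 𝐂(X)) (hc' : c ∈ 𝐂(Om Y)) (hy : y ∈ Y) (hm : y ∉ Om Y) (e : y * c = c * y) :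
    c ∈ 𝐂(Y) := by
  obtain ⟨x, hx, hn⟩ := h.tb.exn h.hX
  obtain ⟨w, -, -, e1, -, e2⟩ := h.swap hx hn hy hm
  have := e2 𝐂[c] (le_cent1_iff.2 hc hx) (mem_cent1.2 e) (le_cent1_iff.2 (cent_anti (om_le X) hc))
    (le_cent1_iff.2 hc')
  rw [← e1, ← conj_centralizer, ← cj_of_cm (mem_cent1.1 this)]
  exact conj_mem_conj.2 hc

theorem z3 (hc : c ∈ 𝐂(X)) (hc' : c ∈ 𝐂(Om Y)) : ∃ a ∈ Om X, a * c ∈ 𝐂(Y) := by
  obtain ⟨y, hy, hm⟩ := h.tb.exn h.hY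
  obtain ⟨a, ha, e⟩ := h.exfix hy hm hc'
  exact ⟨a, ha, h.cent_of_cm (mul_mem ha.2.1 hc) (mul_mem (h.symm.cent ha) hc') hy hm e⟩

theorem not_cent (hr : r ∈ Y) (e : r ∈ 𝐂(X)) : r = 1 :=
  let ⟨x, hx, hn⟩ := h.tb.exn h.hX
  h.inj hx hn hr (mem_cent.1 e x hx)

theorem V_of_cent (hv : v ∈ Om X ⊔ Om Y) (e : v ∈ 𝐂(X)) : v ∈ Om X :=
  let ⟨x, hx, hn⟩ := h.tb.exn h.hX
  h.V_cm hx hn hv (mem_cent.1 e x hx)

theorem card_V : Nat.card ↥(Om X ⊔ Om Y) = Nat.card (Om X) * Nat.card (Om X) := by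
  rw [← DP.card ⟨h.symm.cent, (eq_bot_iff_forall _).2 fun _ e => h.eq_one e.1.1 e.2.1, rfl⟩, h.tb.card_om h.hY h.hX]

end Al

theorem Tb.al_of [Finite G] (h : Tb Ω) (hX : X ∈ Ω) (hY : Y ∈ Ω) (hr : r ∈ Y) (r1 : r ≠ 1) (hn : r ∈ 𝐍(X))
    (hx : x ∈ X) (hy : y ∈ Y) (e : x * y ≠ y * x) : Al Ω X Y :=
  (h.tri hX hY hr r1 hn).resolve_left fun q => e (mem_cent.1 (q hy) x hx)

theorem Tb.om_cent [Finite G] (h : Tb Ω) (hX : X ∈ Ω) (hY : Y ∈ Ω) (hr : r ∈ Y) (r1 : r ≠ 1) (hn : r ∈ 𝐍(X)) :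
    Om Y ≤ 𝐂(Om X) :=
  (h.tri hX hY hr r1 hn).elim (fun e => cent_mono e (om_le Y) (om_le X)) Al.cent

theorem Tb.om_cent' [Finite G] (h : Tb Ω) (hX : X ∈ Ω) (hY : Y ∈ Ω) (ha : a ∈ X) (a1 : a ≠ 1) (hr : r ∈ Y)
    (r1 : r ≠ 1) (e : a * r = r * a) : Om Y ≤ 𝐂(Om X) :=
  h.om_cent hX hY hr r1 (h.norm_of_cm hX ha a1 e.symm)

theorem Tb.tri' (h : Tb Ω) (hX : X ∈ Ω) (hY : Y ∈ Ω) (e : Om Y ≤ 𝐂(Om X)) : Y ≤ 𝐂(X) ∨ Al Ω X Y :=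
  let ⟨_, hr, r1⟩ := h.ex1 hY
  h.tri hX hY hr.1 r1 (h.cent_om_le hX (e hr))

end Cfsg.Lib.TIB
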