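import Cfsg.Agent.Lib.TIB.Beta

/-! Pairs acting quadratically on each other. -/

set_option autoImplicit false

namespace Cfsg.Lib.TIB

open Subgroup Cfsg.Lib.BG Cfsg.Lib.Transfer Cfsg.Lib.GW Cfsg.Lib.TIW
open Cfsg.Lib.Inv hiding conj_mem_of_mem_normalizer
open scoped Cfsg.Lib.Transfer

variable {G : Type*} [Group G] {Ω S : Set (Subgroup G)} {E F K M P U V W X Y Z : Subgroup G}
  {a b c d g k r s t u v w x y z : G}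

theorem cg2 {A : Type*} [CommGroup A] {p q w r : A} (h : w * q⁻¹ = p * r⁻¹) : w * p⁻¹ = q * r⁻¹ := by
  rw [mul_inv_eq_iff_eq_mul.1 h, mul_assoc p, mul_comm p, mul_inv_cancel_right, mul_comm]

theorem cm_inv_cm (x2 : x * x = 1) (e : x * r * x⁻¹ * r = r * (x * r * x⁻¹)) (r2 : r * r = 1) :
    x * x ⋄ r = x ⋄ r * x := cm_of_cj (by
  rw [← conj_mul, cj_cj x2, inv_eq_of_mul_self r2, e])

variable [Finite G]

theorem Al.V_eq (h : Al Ω X Y) (k : Al Ω W Y) (e : Om W ≤ Om X ⊔ Om Y) : Om W ⊔ Om Y = Om X ⊔ Om Y :=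
  eq_of_le_of_card_le (sup_le e le_sup_right) (by rw [h.card_V, k.card_V, h.tb.card_om h.hX k.hX])

theorem Al.lemI (x2 : x * x = 1) (h : Al Ω Y (x ⋆ Y)) :
    ∃ W, Al Ω W Y ∧ x ∈ 𝐍(W) ∧ Om W ≤ Om Y ⊔ Om (x ⋆ Y) ∧ (∃ v ∈ Om W, v ≠ 1 ∧ x * v = v * x) ∧
      (x ∈ 𝐂(Om W) → ∃ w ∈ W, w ∉ Om W ∧ Sm (Om W ⊔ Om Y) x w) := by
  obtain ⟨y, hy, hm⟩ := h.tb.exn h.hX
  obtain ⟨r, hr, s2⟩ := h.surj hy hm (h.sqX hy)
  rw [← h.inv_sq hy hr] at s2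
  have nx : x ∈ 𝐍(Om Y ⊔ Om (x ⋆ Y)) := norm_of_conj_eq (by
    rw [conj_sup, conj_om, conj_om, conj_conj, x2, conj_one, sup_comm])
  have ns := mul_mem (h.normV hy) (h.normV' hr.1)
  have cY : ∀ v ∈ Om Y ⊔ Om (x ⋆ Y), y * r * v = v * (y * r) → v ∈ Om Y := fun v hv q =>
    h.V_cm hy hm hv (cm_cancel' q (h.cmV (mem_sup_right hr) hv))
  obtain ⟨g, hg, u, hu, e1, -, v, hv, v1, e3, e4⟩ := dih_fix (pg_of_sq h.sqV)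
    (ne_bot_mono (h.tb.om_ne h.hX) le_sup_left) nx ns x2 s2
  have ng := zpowers_le.2 (mul_mem nx ns) hg
  have hv' : v ∈ Om (g ⋆ Y) := conj_om g Y ▸ mem_conj.2 (cY _ (conj_mem_of_norm' ng hv) (cm_cj' e4).symm)
  have hW := h.tb.cj h.hX g
  have nW := h.tb.norm_of_cm hW hv'.1 v1 e3.symm
  have le : Om (g ⋆ Y) ≤ Om Y ⊔ Om (x ⋆ Y) := conj_om g Y ▸ conj_le_of_norm le_sup_left ng
  have xY : x ∉ 𝐍(Y) := fun e => h.ne (conj_eq_of_norm e).symm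
  have k : Al Ω (g ⋆ Y) Y := (h.tb.tri' hW h.hX (cent_symm (le.trans h.V_cent))).resolve_left fun e =>
    xY (h.tb.ti hW h.hX hv'.1 (h.V_cm hy hm (le hv') (mem_cent.1 (e hy) v hv'.1).symm).1 v1 ▸ nW)
  refine ⟨_, k, nW, le, ⟨v, hv', v1, e3.symm⟩, fun c => ⟨_, conj_mem_conj.2 hy, fun e =>
    hm (conj_mem_conj.1 (conj_om g Y ▸ e)), ?_⟩⟩
  have eV : Om (g ⋆ Y) ⊔ Om Y = Om Y ⊔ Om (x ⋆ Y) := by
    rw [← (h.symm.V_eq k (le.trans (sup_comm ..).le)).trans (sup_comm ..)]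
  have hw := conj_mem_conj (g := g).2 hy
  have sw : Sm (Om Y ⊔ Om (x ⋆ Y)) u (g * y * g⁻¹ * x⁻¹) := by
    rw [← mul_inv_eq_iff_eq_mul.2 e1, ← conj_mul]
    exact (Sm.mul_cent (h.centV (conj_mem_of_norm ng (mem_sup_right hr))) _).mul (Sm.refl _ _) (inv_mem nx)
  generalize g * y * g⁻¹ = w, g ⋆ Y = W at *
  have sx : x ∈ St (Om W ⊔ Om Y) (Om W) := St.mk (eV ▸ nx) (mem_cent.1 c) fun a ha => by
    have q := conj_mem_of_norm (eV ▸ nx : x ∈ 𝐍(Om W ⊔ Om Y)) ha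
    obtain ⟨j, hj, i, hi, e⟩ := k.memV.1 (mul_mem q (inv_mem ha))
    have := cm_inv_cm x2 (k.cmV q ha) (k.sqV a ha)
    rw [← e] at this
    have i1 : i = 1 := by_contra fun i1 => xY (h.tb.norm_of_cm h.hX hi.1 i1
      (cm_cancel this.symm (mem_cent.1 c j hj)).symm)
    rw [cm_swap, ← e, i1, mul_one]
    exact inv_mem hj
  have sd : w * x⁻¹ ∈ St (Om W ⊔ Om Y) (Om W) := mul_mem (St.mk (k.normV hw) (fun _ e => om_cm e hw) fun a ha => by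
    rw [cm_swap]; exact inv_mem (k.cmV_mem hw ha)) (inv_mem sx)
  have d2 := St.sq (fun _ => om_sq) sd
  have nd := St.norm sd
  rw [eV] at d2 nd
  refine (Sm.of_cent' ?_ (St.norm sx)).symm
  rw [cent_sup]
  refine ⟨St.le_cent sd, mem_cent.2 fun i hi => cm_of_one (k.eq_one (St.mem sd (mem_sup_right hi)).1 ?_)⟩
  have := inv_fix (r := i) (inv_zp x2 s2 hu).2 (mem_cent.1 ((sw.mul sw nd).mem_cent d2) i (mem_sup_left hi)).symm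
    (cm_mul (om_cm hi hy).symm (h.cm hi hr).symm)
  rw [sw i (mem_sup_left hi)] at this
  rw [cm_swap]
  exact inv_mem (mul_mem (cY _ (conj_mem_of_norm nd (mem_sup_left hi)) this).1 (inv_mem hi.1))

/-- The hypothesis under which a pair is quadratic. -/
structure Qh (Ω : Set (Subgroup G)) (Y Z : Subgroup G) : Prop where
  tb : Tb Ω
  hY : Y ∈ Ω
  hZ : Z ∈ Ω
  nc : ¬ Om Y ≤ 𝐂(Om Z)
  c : ∀ a ∈ Om Z, a ⋆ Om Y ≤ 𝐂(Om Y)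

/-- The involutions of `Z` act on the line through `X` and `Y` as elements of `X`. -/
def Ac (X Y Z : Subgroup G) : Prop := ∀ a ∈ Om Z, a ≠ 1 → ∃ x ∈ X, x ∉ Om X ∧ Sm (Om X ⊔ Om Y) a x

theorem Ac.cm_mem (h : Al Ω X Y) (e : Ac X Y Z) (ha : a ∈ Om Z) (hr : r ∈ Om Y) : a ⋄ r ∈ Om X := by
  obtain rfl | a1 := eq_or_ne a 1
  · simp
  obtain ⟨x, hx, -, q⟩ := e a ha a1
  exact q.cm (mem_sup_right hr) ▸ h.cm_mem hx hr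

theorem Ac.cm_ne (h : Al Ω X Y) (e : Ac X Y Z) (ha : a ∈ Om Z) (a1 : a ≠ 1) (hr : r ∈ Om Y) (r1 : r ≠ 1) :
    a ⋄ r ≠ 1 :=
  let ⟨_, hx, hn, q⟩ := e a ha a1
  q.cm (mem_sup_right hr) ▸ h.cm_ne hx hn hr.1 r1

namespace Qh

variable (h : Qh Ω Y Z)
include h

theorem nZ (ha : a ∈ Z) (n : a ∈ 𝐍(Y)) : a = 1 := by_contra fun a1 =>
  h.nc (cent_symm (h.tb.om_cent h.hY h.hZ ha a1 n))

theorem nY (ha : a ∈ Y) (n : a ∈ 𝐍(Z)) : a = 1 := by_contra fun a1 => h.nc (h.tb.om_cent h.hZ h.hY ha a1 n)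

omit [Finite G] in
theorem tri (ha : a ∈ Om Z) : a ⋆ Y ≤ 𝐂(Y) ∨ Al Ω Y (a ⋆ Y) :=
  h.tb.tri' h.hY (h.tb.cj h.hY a) (conj_om a Y ▸ h.c a ha)

theorem exa : ∃ a ∈ Om Z, a ≠ 1 ∧ Al Ω Y (a ⋆ Y) := by
  by_contra! n
  refine h.nc (h.tb.kk' h.hY h.hZ fun a ha => (h.tri ha).resolve_right fun e => n a ha ?_ e)
  rintro rfl
  exact e.ne (conj_one Y).symm

theorem ctr (ha : a ∈ Om Z) (a1 : a ≠ 1) (e : Al Ω Y (a ⋆ Y)) :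
    ∃ W, Al Ω W Y ∧ Om Z ≤ 𝐂(Om W) ∧ ∃ w ∈ W, w ∉ Om W ∧ Sm (Om W ⊔ Om Y) a w :=
  let ⟨W, k, n, _, _, q⟩ := e.lemI ha.2.2
  have c := h.tb.om_cent k.hX h.hZ ha.1 a1 n
  ⟨W, k, c, q (c ha)⟩

theorem quad (hb : b ∈ Om Z) (hr : r ∈ Om Y) : b ⋄ r ∈ 𝐂(Om Z) := by
  obtain ⟨a, ha, a1, e⟩ := h.exa
  obtain ⟨W, k, c, w, hw, -, q⟩ := h.ctr ha a1 e
  have ab := ab_nc h.c
  have m : ∀ {a}, a ∈ Om Z → a * r * a⁻¹ ∈ Nc (Om Z) (Om Y) := fun ha => cj_le_nc ha (conj_mem_conj.2 hr)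
  have e1 := cj_of_cm (mem_cent.1 (c hb) _ (q.cm (mem_sup_right hr) ▸ k.cm_mem hw hr)).symm
  rw [show b * a ⋄ r * b⁻¹ = b * a * r * (b * a)⁻¹ * (b * r * b⁻¹)⁻¹ by group] at e1
  have e2 : b * a * r * (b * a)⁻¹ * (a * r * a⁻¹)⁻¹ = b ⋄ r := congrArg Subtype.val
    (@cg2 _ (cgp ab) ⟨_, m ha⟩ ⟨_, m hb⟩ ⟨_, m (mul_mem hb ha)⟩ ⟨r, le_nc _ _ hr⟩ (Subtype.ext e1))
  rw [om_cm hb ha.1, show a * b * r * (a * b)⁻¹ * (a * r * a⁻¹)⁻¹ = a * b ⋄ r * a⁻¹ by group] at e2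
  refine mem_cent.2 fun t ht => h.tb.cm_cent h.hZ (fun u hu hu' => by_contra fun u1 => ?_)
    (mul_mem (m hb) (inv_mem (le_nc _ _ hr))) ha.1 a1 (cm_of_cj e2).symm ht.1 (norm_nc _ _ ht)
  obtain ⟨i, hi, i1⟩ := h.tb.ex1 h.hY
  exact i1 (h.nY hi.1 (h.tb.norm_of_cm h.hZ hu' u1 (le_cent_iff.1 ab i (le_nc _ _ hi) u hu)))

theorem symm : Qh Ω Z Y := ⟨h.tb, h.hZ, h.hY, fun e => h.nc (cent_symm e), fun r hr => conj_le_iff.2 fun b hb => by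
  rw [cj_eq_cm, cm_swap]
  exact mul_mem (inv_mem (h.quad hb hr)) (cent_om Z hb.1)⟩

theorem half : ∃ X, Al Ω X Y ∧ Ac X Y Z := by
  obtain ⟨r, hr, r1, e⟩ := h.symm.exa
  obtain ⟨X, k, -, x, hx, -, q⟩ := h.symm.ctr hr r1 e
  have m : ∀ {b}, b ∈ Om Z → b ⋄ r ∈ Om X := fun hb => by
    rw [cm_swap, q.cm (mem_sup_right hb)]; exact inv_mem (k.cm_mem hx hb)
  have al : ∀ {a}, a ∈ Om Z → a ≠ 1 → Al Ω Y (a ⋆ Y) → Al Ω X Y ∧ ∃ w ∈ X, w ∉ Om X ∧ Sm (Om X ⊔ Om Y) a w :=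
    fun ha a1 e => by
      obtain ⟨W, k', -, w, hw, hn, q⟩ := h.ctr ha a1 e
      obtain rfl := h.tb.ti k.hX k'.hX (m ha).1 (q.cm (mem_sup_right hr) ▸ (k'.cm_mem hw hr).1)
        (q.cm (mem_sup_right hr) ▸ k'.cm_ne hw hn hr.1 r1)
      exact ⟨k', w, hw, hn, q⟩
  obtain ⟨a, ha, a1, e⟩ := h.exa
  have kY := (al ha a1 e).1
  refine ⟨X, kY, fun b hb b1 => (al hb b1 ((h.tri hb).resolve_left fun c => b1 (h.nZ hb.1 ?_))).2⟩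
  obtain ⟨y, hy, hn⟩ := h.tb.exn h.hY
  exact h.tb.norm_of_cm h.hY hr.1 r1 (cm_of_one (kY.symm.inj hy hn (m hb).1 (cm_mul'
    (mem_cent.1 (c (conj_mem_conj.2 hr.1)) y hy) (om_cm (inv_mem hr) hy).symm)))

end Qh

/-- A quadratic pair `Y`, `Z` with centre `X`. -/
structure Qd (Ω : Set (Subgroup G)) (X Y Z : Subgroup G) : Prop where
  l : Al Ω X Y
  l' : Al Ω X Z
  ac : Ac X Y Z
  ac' : Ac X Z Y

theorem Qh.qd (h : Qh Ω Y Z) : ∃ X, Qd Ω X Y Z := by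
  obtain ⟨X, k, e⟩ := h.half
  obtain ⟨X', k', e'⟩ := h.symm.half
  obtain ⟨a, ha, a1⟩ := h.tb.ex1 h.hZ
  obtain ⟨r, hr, r1⟩ := h.tb.ex1 h.hY
  obtain rfl := h.tb.ti k.hX k'.hX (e.cm_mem k ha hr).1 (by
    rw [cm_swap]; exact inv_mem (e'.cm_mem k' hr ha).1) (e.cm_ne k ha a1 hr r1)
  exact ⟨X, k, k', e, e'⟩

theorem card_hom (φ : X →* Om X) (hk : ∀ x : X, φ x = 1 ↔ x.1 ∈ Om X) :
    Nat.card X = Nat.card (Om X) * Nat.card φ.range := by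
  rw [← index_ker, show φ.ker = (Om X).subgroupOf X from Subgroup.ext hk, ← relIndex, BG.card_mul_relIndex (om_le X)]

theorem surj_hom (φ : X →* Om X) (hk : ∀ x : X, φ x = 1 ↔ x.1 ∈ Om X)
    (hc : Nat.card X = Nat.card (Om X) * Nat.card (Om X)) (ha : a ∈ Om X) : ∃ x : X, φ x = a := by
  rw [card_hom φ hk, Nat.mul_right_inj Nat.card_pos.ne'] at hc
  obtain ⟨x, e⟩ := (eq_top_of_card_eq _ hc).ge (mem_top ⟨a, ha⟩)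
  exact ⟨x, congrArg Subtype.val e⟩

/-- The commutator map of a point of a line. -/
def Al.phi (h : Al Ω X Y) (hr : r ∈ Om Y) : X →* Om X :=
  MonoidHom.mk' (fun x => ⟨_, h.cm_mem x.2 hr⟩) fun x y => Subtype.ext (h.add' x.2 y.2 hr)

theorem Al.phi_ker (h : Al Ω X Y) (hr : r ∈ Om Y) (r1 : r ≠ 1) (x : X) : h.phi hr x = 1 ↔ x.1 ∈ Om X :=
  ⟨fun e => h.om_of_cm x.2 hr.1 r1 (cm_of_one (congrArg Subtype.val e)), fun e => Subtype.ext (one_of_cm (h.cm e hr))⟩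

namespace Qd

variable (h : Qd Ω X Y Z)
include h

omit [Finite G] in
theorem symm : Qd Ω X Z Y := ⟨h.l', h.l, h.ac', h.ac⟩

omit [Finite G] in
theorem tb : Tb Ω := h.l.tb

theorem cm_mem (ha : a ∈ Om Z) (hr : r ∈ Om Y) : a ⋄ r ∈ Om X := h.ac.cm_mem h.l ha hr

theorem cm_ne (ha : a ∈ Om Z) (a1 : a ≠ 1) (hr : r ∈ Om Y) (r1 : r ≠ 1) : a ⋄ r ≠ 1 := h.ac.cm_ne h.l ha a1 hr r1

theorem nc : ¬ Om Y ≤ 𝐂(Om Z) := fun e =>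
  let ⟨a, ha, a1⟩ := h.tb.ex1 h.l'.hY
  let ⟨_, hr, r1⟩ := h.tb.ex1 h.l.hY
  h.cm_ne ha a1 hr r1 (one_of_cm (mem_cent.1 (e hr) a ha))

theorem act (ha : a ∈ Om Z) : ∃ x ∈ X, Sm (Om X ⊔ Om Y) a x := by
  obtain rfl | a1 := eq_or_ne a 1
  · exact ⟨1, one_mem _, Sm.refl _ _⟩
  exact let ⟨x, hx, _, q⟩ := h.ac a ha a1; ⟨x, hx, q⟩

omit [Finite G] in
theorem conj (g : G) : Qd Ω (g ⋆ X) (g ⋆ Y) (g ⋆ Z) := by
  have k : ∀ {Y Z : Subgroup G}, Ac X Y Z → Ac (g ⋆ X) (g ⋆ Y) (g ⋆ Z) := fun e a ha a1 => by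
    rw [← conj_om] at ha
    obtain ⟨b, hb, rfl⟩ := ha
    obtain ⟨x, hx, hn, q⟩ := e b hb (by rintro rfl; simp at a1)
    refine ⟨_, conj_mem_conj.2 hx, fun e => hn (conj_mem_conj.1 (conj_om g X ▸ e)), ?_⟩
    rw [← conj_om, ← conj_om, ← conj_sup]
    exact q.conj g
  exact ⟨h.l.conj g, h.l'.conj g, k h.ac, k h.ac'⟩

theorem surj (hr : r ∈ Om Y) (r1 : r ≠ 1) (hb : b ∈ Om X) : ∃ a ∈ Om Z, a ⋄ r = b := by
  have i : Function.Injective fun a : Om Z => (⟨_, h.cm_mem a.2 hr⟩ : Om X) :=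
    (injective_iff_map_eq_one (MonoidHom.mk' (fun a : Om Z => (⟨_, h.cm_mem a.2 hr⟩ : Om X)) fun a b =>
      Subtype.ext (by
        simp only [coe_mul]
        rw [cm_left, cj_of_cm (h.l'.cm (h.cm_mem b.2 hr) a.2).symm,
          om_cm (h.cm_mem b.2 hr) (h.cm_mem a.2 hr).1]))).2 fun a e =>
      Subtype.ext (by_contra fun a1 => h.cm_ne a.2 a1 hr r1 (congrArg Subtype.val e))
  obtain ⟨a, e⟩ := (i.bijective_of_nat_card_le (h.tb.card_om h.l.hX h.l'.hY).le).2 ⟨b, hb⟩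
  exact ⟨a, a.2, congrArg Subtype.val e⟩

theorem card (hW : W ∈ Ω) : Nat.card W = Nat.card (Om W) * Nat.card (Om W) := by
  obtain ⟨r, hr, r1⟩ := h.tb.ex1 h.l.hY
  rw [h.tb.card_eq hW h.l.hX, h.tb.card_om hW h.l.hX, card_hom _ (h.l.phi_ker hr r1),
    (MonoidHom.range_eq_top.2 fun b => ?_), card_top]
  obtain ⟨a, ha, e⟩ := h.surj hr r1 b.2
  obtain ⟨x, hx, q⟩ := h.act ha
  exact ⟨⟨x, hx⟩, Subtype.ext ((q.cm (mem_sup_right hr)).symm.trans e)⟩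

theorem full (k : Al Ω U W) (hr : r ∈ Om W) (r1 : r ≠ 1) (ha : a ∈ Om U) : ∃ x ∈ U, x ⋄ r = a :=
  let ⟨x, e⟩ := surj_hom _ (k.phi_ker hr r1) (h.card k.hX) ha
  ⟨x, x.2, e⟩

theorem sq_surj (hW : W ∈ Ω) (ha : a ∈ Om W) : ∃ x ∈ W, x * x = a :=
  let ⟨x, e⟩ := surj_hom (MonoidHom.mk' (fun x : W => (⟨_, h.l.sq hW x.2⟩ : Om W)) fun x y => Subtype.ext (by
    simp only [coe_mul]
    rw [mul_assoc, mul_assoc, ← mul_assoc y.1, h.tb.cm hW y.2 x.2, mul_assoc]))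
    (fun x => ⟨fun e => h.tb.mem_om hW x.2 (congrArg Subtype.val e), fun e => Subtype.ext e.2.2⟩) (h.card hW) ha
  ⟨x, x.2, e⟩

theorem onto (hx : x ∈ X) : ∃ a ∈ Om Z, Sm (Om X ⊔ Om Y) a x := by
  obtain ⟨r, hr, r1⟩ := h.tb.ex1 h.l.hY
  obtain ⟨a, ha, e⟩ := h.surj hr r1 (h.l.cm_mem hx hr)
  obtain ⟨y, hy, q⟩ := h.act ha
  exact ⟨a, ha, q.trans (h.l.sm_of_om hy hx (h.l.cm_inj' hy hx hr r1 ((q.cm (mem_sup_right hr)).symm.trans e)))⟩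

end Qd

end Cfsg.Lib.TIB
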